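import Mathlib

/-!
Pushing up with several types of vertices: the identity between two quadratic automorphisms `U`, `V`
and a derivation `f`.
-/

set_option autoImplicit false

namespace CfsgLib.PushUp.CommonCore

variable {A : Type*} [AddCommGroup A]

/-- If `U`, `V` and `U (1 + f)` are quadratic and the conjugates of `f` send `m` into fixed points of `U`,
then `(U - 1)(V - 1)(f m)` is fixed by `U` and by `V U V⁻¹`. -/
theorem fixed_of_quadratic (h2 : ∀ a : A, a + a = 0 → a = 0) (U Ui Vv Vi f : A →+ A)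
    (hIU : ∀ a, Ui (U a) = a) (hVI : ∀ a, Vv (Vi a) = a) (hIV : ∀ a, Vi (Vv a) = a)
    (hN : ∀ a, U (U a - a) = U a - a) (hM : ∀ a, Vv (Vv a - a) = Vv a - a)
    (hE : ∀ a, U ((U (a + f a) - a) + f (U (a + f a) - a)) = U (a + f a) - a)
    (C₀ : AddSubgroup A) (hfC : ∀ a ∈ C₀, f a = 0) (hUC : ∀ a ∈ C₀, U a ∈ C₀) (m : A)
    (hm : U m - m ∈ C₀) (hμ : f (Vv m) - f m ∈ C₀)
    (h1 : U (f m) = f m) (hy : U (Vi (f (Vv m))) = Vi (f (Vv m)))
    (hy' : U (Vv (f (Vi m))) = Vv (f (Vi m)))
    (hy'' : U (Vi (U (f (Ui (Vv m))))) = Vi (U (f (Ui (Vv m))))) :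
    U (U (Vv (f m)) - Vv (f m)) = U (Vv (f m)) - Vv (f m) ∧
      Vv (U (Vi (U (Vv (f m)) - Vv (f m)))) = U (Vv (f m)) - Vv (f m) := by
  have hUi : ∀ a, Ui a = a - (U a - a) := fun a => by
    conv_lhs => rw [show a = U (a - (U a - a)) by rw [map_sub, hN]; abel]
    rw [hIU]
  have hVi : ∀ a, Vi a = a - (Vv a - a) := fun a => by
    conv_lhs => rw [show a = Vv (a - (Vv a - a)) by rw [map_sub, hM]; abel]
    rw [hIV]
  have hVV : ∀ a, Vv (Vv a) = Vv a + (Vv a - a) := fun a => by
    have := hM a; rw [map_sub] at this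
    rw [sub_eq_iff_eq_add.1 this]; abel
  have hUU : ∀ a, U (U a) = U a + (U a - a) := fun a => by
    have := hN a; rw [map_sub] at this
    rw [sub_eq_iff_eq_add.1 this]; abel
  set l := f m with hl
  set F := f (Vv m) with hF
  have hFi : f (Vi m) = l - (F - l) := by rw [hVi, map_sub, map_sub]
  set ν := f (U (Vv m) - Vv m - (U m - m)) with hν
  have hν' : f (U (Vv m) - Vv m) = ν := by
    rw [hν, map_sub f (U (Vv m) - Vv m) (U m - m), hfC _ hm, sub_zero]
  -- the two cosets
  have hA := hy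
  rw [hVi, map_sub, map_sub] at hA
  have hB := hy'
  simp only [hFi, map_sub] at hB
  have key : U F - F = U (Vv l) - Vv l := by
    refine sub_eq_zero.1 (h2 _ ?_)
    have hA' : U F - (U (Vv F) - U F) - (F - (Vv F - F)) = 0 := sub_eq_zero.2 hA
    have hB' : U (Vv l) - (U (Vv F) - U (Vv l)) - (Vv l - (Vv F - Vv l)) = 0 := sub_eq_zero.2 hB
    have e := congrArg₂ (fun a b => a - b) hA' hB'
    simp only [sub_zero] at e
    rw [← e]; abel
  -- the conjugate derivation
  have hF' : U (f (Ui (Vv m))) = U (F - ν) := by rw [hUi, map_sub f, hν']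
  have hδ := hy''
  rw [hF', hVi] at hδ
  have hquad := hE (Vv m - m)
  have hE1 : U ((Vv m - m) + f (Vv m - m)) - (Vv m - m) =
      (U (Vv m) - Vv m - (U m - m)) + (U F - l) := by
    rw [map_add, map_sub U, map_sub f, map_sub U, ← hl, ← hF, h1]; abel
  rw [hE1] at hquad
  have hC1 : U F - l ∈ C₀ := by
    have := hUC _ hμ
    rwa [map_sub, h1] at this
  rw [map_add f, hfC _ hC1, add_zero, ← hν, map_add, map_add] at hquad
  have hNN : U (U (Vv m) - Vv m - (U m - m)) = U (Vv m) - Vv m - (U m - m) := by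
    rw [map_sub, hN, hN]
  rw [hNN, map_sub U (U F), h1, hUU] at hquad
  have hNν : U ν = l - U F + (U (Vv m) - Vv m - (U m - m) + (U F - l)) -
      (U (Vv m) - Vv m - (U m - m)) - (U F - F) := by
    rw [← hquad]; abel
  have hνeq : U ν = -(U F - F) := hNν.trans (by abel)
  have hUν : U ν = ν := by
    have := hUU ν
    rw [hνeq, map_neg, hN, ← hνeq] at this
    have h' : U ν - ν = 0 := by
      have e := congrArg (fun t => t - U ν) this
      simp only [sub_self, add_sub_cancel_left] at e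
      exact e.symm
    exact sub_eq_zero.1 h'
  have hνF : ν = -(U F - F) := hUν.symm.trans hνeq
  set n := U F - F with hn
  have hUn : U n = n := hN F
  refine ⟨hN _, ?_⟩
  rw [← key]
  -- `n + n` is the difference of two values
  have hdiff : U (F - ν) - F = n + n := by rw [map_sub, hUν, hνF, hn]; abel
  have hfix : Vv (U (Vi (n + n))) = n + n := by
    rw [← hdiff, map_sub Vi, map_sub U, hy, map_sub Vv, hVI]
    have h3 : U (Vi (U (F - ν))) = Vi (U (F - ν)) := by
      rw [hVi]; exact hδ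
    rw [h3, hVI]
  rw [map_add, map_add, map_add] at hfix
  refine sub_eq_zero.1 (h2 _ ?_)
  rw [← sub_eq_zero.2 hfix]; abel

end CfsgLib.PushUp.CommonCore
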