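import Cfsg.Agent.Lib.PushUp.CommonCore.Sys

/-!
Pushing up with several types of vertices: chains, shifts and `b ≤ 2`.
-/

set_option autoImplicit false
set_option linter.style.haveILetI false
set_option linter.unusedSectionVars false

namespace CfsgLib.PushUp.CommonCore

open scoped commutatorElement
open CfsgLib.PushUp.RankOne (cj mem_cj conj_mem_cj cj_one cj_mul cj_inv_cj cj_cj_inv cj_mono card_cj
  cj_eq_self cj_eq_self_of_mem exists_mul_of_mem_sup le_normalizer_of_conj commutator_eq_one_of)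

variable {X : Type*} [Group X] {p : ℕ} {Γ : Type*} [MulAction X Γ]

namespace Sys

variable (D : Sys p X Γ) {x y z : Γ} {P P' : Subgroup X}

/-- The subgroup generated by the `V` of the vertices on an edge. -/
def U (P : Subgroup X) : Subgroup X := ⨆ y, ⨆ (_ : D.I y P), D.V y

theorem V_le_U (h : D.I y P) : D.V y ≤ D.U P := le_iSup₂_of_le y h le_rfl

theorem conj_mem_U (g : X) {u : X} (hu : u ∈ D.U P) : g * u * g⁻¹ ∈ D.U (cj g P) := by
  have h1 : cj g (D.U P) ≤ D.U (cj g P) := by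
    rw [U, cj, Subgroup.map_iSup]
    refine iSup_le fun w => ?_
    rw [Subgroup.map_iSup]
    refine iSup_le fun hw => ?_
    exact le_iSup₂_of_le (g • w) (D.smul_I g hw) (by rw [D.smul_V]; exact le_rfl)
  exact h1 (conj_mem_cj hu)

variable [Finite X] [hp : Fact p.Prime]

/-- A critical walk with `m` generating turns. -/
structure Chain (L m : ℕ) (v : ℕ → Γ) (P : ℕ → Subgroup X) : Prop where
  left : ∀ i < L, D.I (v i) (P i)
  right : ∀ i < L, D.I (v (i + 1)) (P i)
  crit : ∀ i, i + D.b ≤ L → ¬ D.V (v i) ≤ D.Q (v (i + D.b))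
  gen : ∀ i, i + 1 < L → i < m → P i ⊔ P (i + 1) = D.Gv (v (i + 1))

/-- The obstruction to a shift at the start of a walk. -/
def Fail (v : ℕ → Γ) (P : ℕ → Subgroup X) : Prop :=
  ∀ g ∈ D.Gv (v 0), ∀ t ∈ D.U (P 0), g * t * g⁻¹ ∈ D.U (P 0)

variable {L m : ℕ} {v : ℕ → Γ} {Pc : ℕ → Subgroup X}

theorem Chain.near (hC : D.Chain L m v Pc) {i j : ℕ} (hij : i ≤ j) (hj : j ≤ L) :
    D.Near (j - i) (v i) (v j) := by
  induction j with
  | zero => rw [Nat.le_zero.1 hij]; rfl
  | succ j ih =>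
    rcases Nat.eq_or_lt_of_le hij with rfl | hlt
    · rw [Nat.sub_self]; rfl
    · rw [Nat.succ_sub (Nat.lt_succ_iff.1 hlt)]
      exact ⟨v j, ih (Nat.lt_succ_iff.1 hlt) (by omega), Pc j, hC.left j (by omega), hC.right j (by omega)⟩

theorem Chain.crit' (hC : D.Chain L m v Pc) {i : ℕ} (hi : i + D.b ≤ L) :
    D.Crit (v i) (v (i + D.b)) (Pc i) (Pc (i + D.b - 1)) := by
  have hb := D.one_le_b
  have hlast := hC.right (i + D.b - 1) (by omega)
  rw [show i + D.b - 1 + 1 = i + D.b by omega] at hlast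
  refine ⟨hC.left i (by omega), hlast, ?_, ?_, hC.crit i hi⟩
  · exact D.le_edge (k := i + D.b - (i + 1)) (by omega) (D.near_symm (hC.near D (by omega) hi))
      (hC.right i (by omega))
  · exact D.le_edge (k := i + D.b - 1 - i) (by omega) (hC.near D (by omega) (by omega))
      (hC.left _ (by omega))

theorem Chain.exists_shift (hb : 2 ≤ D.b) (hC : D.Chain L m v Pc) (hL : D.b ≤ L) (hnf : ¬ D.Fail v Pc) :
    ∃ (w : Γ) (Q' : Subgroup X), D.I w Q' ∧ D.I (v 0) Q' ∧ Q' ⊔ Pc 0 = D.Gv (v 0) ∧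
      ¬ D.V w ≤ D.Q (v (D.b - 1)) := by
  by_contra hc
  push Not at hc
  have hcr := hC.crit' D (i := 0) (by omega)
  simp only [Nat.zero_add] at hcr
  set x := v 0 with hx
  set y := v D.b with hy
  set z := v (D.b - 1) with hz
  have hP : D.I x (Pc 0) := hcr.first
  -- the good edges
  set W : Subgroup X := D.U (Pc 0) ⊔ ⨆ Q', ⨆ (_ : D.I x Q' ∧ Q' ⊔ Pc 0 = D.Gv x), D.U Q' with hW
  have hWz : W ≤ D.Q z := by
    refine sup_le (iSup₂_le fun w hw => ?_) (iSup₂_le fun Q' hQ' => iSup₂_le fun w hw => ?_)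
    · refine D.le_Q (k := 1 + (D.b - 1 - 1)) (by omega) ?_
      exact D.near_add (D.near_one hw (hC.right 0 (by omega))) (hC.near D (by omega) (by omega))
    · exact hc w Q' hw hQ'.1 hQ'.2
  have hzP : D.Q z ≤ Pc (D.b - 1) := D.Q_le (hC.left _ (by omega))
  have hsup := hcr.sup_last D
  have hxU : D.V x ≤ D.U (Pc 0) := D.V_le_U hP
  -- `V y` acts trivially on `W` modulo `V x`
  have hWy : ∀ u ∈ D.V y, ∀ w ∈ W, ⁅u, w⁆ ∈ D.V x := by
    intro u hu w hw
    obtain ⟨a, ha, c, hc', rfl⟩ := exists_mul_of_mem_sup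
      (D.IP_le_normalizer hcr.last hcr.mem_last) (hsup ▸ hzP (hWz hw) : w ∈ D.V x ⊔ D.Q y)
    have e : ⁅u, a * c⁆ = ⁅u, a⁆ := by
      have e1 := D.comm c hc' u⁻¹ ((D.V y).inv_mem hu)
      rw [commutatorElement_def, commutatorElement_def]
      calc u * (a * c) * u⁻¹ * (a * c)⁻¹ = u * a * (c * u⁻¹) * c⁻¹ * a⁻¹ := by group
        _ = u * a * u⁻¹ * a⁻¹ := by rw [e1]; group
    rw [e]
    have h1 := D.normV u (D.le_G hP (hcr.mem_first hu)) a ha
    exact (D.V x).mul_mem h1 ((D.V x).inv_mem ha)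
  obtain ⟨g, hg, hgM⟩ := D.exists_not_mem hP
  obtain ⟨u, hu, huQ⟩ := SetLike.not_le_iff_exists.1 hcr.not_le'
  -- the stabiliser of `U`
  set T := D.U (Pc 0)
  set H : Subgroup X := D.Gv x ⊓ Subgroup.normalizer (T : Set X) with hH
  have hPH : Pc 0 ≤ H := fun s hs => by
    refine ⟨D.le_G hP hs, Subgroup.mem_normalizer_fintype fun t ht => ?_⟩
    have := D.conj_mem_U s ht
    rwa [cj_eq_self_of_mem hs] at this
  have hgi : cj g⁻¹ (Pc 0) ⊔ Pc 0 = D.Gv x := by
    rw [sup_comm]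
    exact D.sup_cj_eq hP ((D.Gv x).inv_mem hg) fun h => hgM (by simpa using (D.M x (Pc 0)).inv_mem h)
  have hconj : g * u * g⁻¹ ∈ H := by
    have hgG : g * u * g⁻¹ ∈ D.Gv x :=
      (D.Gv x).mul_mem ((D.Gv x).mul_mem hg (D.le_G hP (hcr.mem_first hu))) ((D.Gv x).inv_mem hg)
    refine ⟨hgG, Subgroup.mem_normalizer_fintype fun t ht => ?_⟩
    have h1 : g⁻¹ * t * g ∈ W := by
      have := D.conj_mem_U g⁻¹ ht
      rw [inv_inv] at this
      exact Subgroup.mem_sup_right (Subgroup.mem_iSup_of_mem _ (Subgroup.mem_iSup_of_mem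
        ⟨D.I_conj ((D.Gv x).inv_mem hg) hP, hgi⟩ this))
    have h2 := hWy u hu _ h1
    have h3 : ⁅g * u * g⁻¹, t⁆ ∈ D.V x := by
      have := D.normV g hg _ h2
      simpa [commutatorElement_def, mul_assoc] using this
    have h4 := T.mul_mem (hxU h3) ht
    simpa [commutatorElement_def, mul_assoc] using h4
  have hHe : H = D.Gv x := D.eq_G_of_conj hP inf_le_left hPH hg hgM (hcr.mem_first hu) huQ hconj
  refine hnf fun a ha t ht => ?_
  exact (Subgroup.mem_normalizer_iff.1 ((hHe ▸ ha : a ∈ H).2) t).1 ht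

/-- The subgroup generated by the `V` of the neighbours. -/
def W (x : Γ) : Subgroup X := ⨆ P, ⨆ (_ : D.I x P), D.U P

theorem U_le_W (h : D.I x P) : D.U P ≤ D.W x := le_iSup₂_of_le P h le_rfl

theorem exists_path {k : ℕ} (h : D.Near k x y) :
    ∃ (v : ℕ → Γ) (Pc : ℕ → Subgroup X), v 0 = x ∧ v k = y ∧
      (∀ i < k, D.I (v i) (Pc i)) ∧ ∀ i < k, D.I (v (i + 1)) (Pc i) := by
  induction k generalizing y with
  | zero => exact ⟨fun _ => x, fun _ => ⊥, rfl, h, fun i hi => absurd hi (by omega), fun i hi => absurd hi (by omega)⟩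
  | succ k ih =>
    obtain ⟨w, hw, P, hwP, hyP⟩ := h
    obtain ⟨v, Pc, h0, hk, hl, hr⟩ := ih hw
    refine ⟨fun i => if i ≤ k then v i else y, fun i => if i < k then Pc i else P, ?_, ?_, ?_, ?_⟩
    · simp [h0]
    · simp
    · intro i hi
      by_cases hik : i < k
      · simp only [hik, if_true, hik.le]; exact hl i hik
      · obtain rfl : i = k := by omega
        simp only [lt_irrefl, if_false, le_refl, if_true, hk]; exact hwP
    · intro i hi
      by_cases hik : i < k
      · simp only [hik, if_true, show i + 1 ≤ k by omega]; exact hr i hik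
      · obtain rfl : i = k := by omega
        simp only [lt_irrefl, if_false, show ¬ i + 1 ≤ i by omega]; exact hyP

theorem W_conj {g : X} (hg : g ∈ D.Gv x) {w : X} (hw : w ∈ D.W x) : g * w * g⁻¹ ∈ D.W x := by
  have h1 : cj g (D.W x) ≤ D.W x := by
    rw [W, cj, Subgroup.map_iSup]
    refine iSup_le fun P => ?_
    rw [Subgroup.map_iSup]
    refine iSup_le fun hP => ?_
    refine le_iSup₂_of_le (cj g P) (D.I_conj hg hP) ?_
    rintro _ ⟨u, hu, rfl⟩
    exact D.conj_mem_U g hu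
  exact h1 (conj_mem_cj hw)

theorem W_le {k : ℕ} (hk : k + 1 < D.b) {z : Γ} (h : D.Near k x z) : D.W x ≤ D.Q z :=
  iSup₂_le fun _ hP => iSup₂_le fun _ hw =>
    D.le_Q (k := 1 + k) (by omega) (D.near_add (D.near_one hw hP) h)

theorem W_le_Q (hb : 2 ≤ D.b) (x : Γ) : D.W x ≤ D.Q x := D.W_le (k := 0) (by omega) rfl

/-- The induction step. -/
theorem extend_or_fail (hb : 2 ≤ D.b) {k : ℕ}
    (hno : ¬ ∃ v Pc, D.Chain (D.b + (k + 1)) (k + 1) v Pc) {v : ℕ → Γ} {Pc : ℕ → Subgroup X}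
    (hC : D.Chain (D.b + k) k v Pc) : D.Fail v Pc := by
  by_contra hnf
  obtain ⟨w, Q', hwQ, hxQ, hgen, hV⟩ := hC.exists_shift D hb (by omega) hnf
  refine hno ⟨fun i => match i with | 0 => w | j + 1 => v j,
    fun i => match i with | 0 => Q' | j + 1 => Pc j, ?_, ?_, ?_, ?_⟩
  · intro i hi
    cases i with
    | zero => exact hwQ
    | succ j => exact hC.left j (by omega)
  · intro i hi
    cases i with
    | zero => exact hxQ
    | succ j => exact hC.right j (by omega)
  · intro i hi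
    cases i with
    | zero =>
      obtain ⟨c, hc⟩ : ∃ c, D.b = c + 1 := ⟨D.b - 1, by omega⟩
      rw [Nat.zero_add, hc]
      rw [hc, Nat.add_sub_cancel] at hV
      exact hV
    | succ j =>
      rw [show j + 1 + D.b = (j + D.b) + 1 by omega]
      exact hC.crit j (by omega)
  · intro i hi hik
    cases i with
    | zero => exact hgen
    | succ j => exact hC.gen j (by omega) (by omega)



theorem Chain.le_Q' (hC : D.Chain L L v Pc) {i j : ℕ} (hij : i ≤ j) (hj : j ≤ L)
    (hd : j - i < D.b) : D.V (v i) ≤ D.Q (v j) ∧ D.V (v j) ≤ D.Q (v i) :=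
  ⟨D.le_Q hd (hC.near D hij hj), D.le_Q hd (D.near_symm (hC.near D hij hj))⟩

theorem Chain.commute (hC : D.Chain L L v Pc) {i j : ℕ} (hij : i ≤ j) (hj : j ≤ L)
    (hd : j - i < D.b) {a c : X} (ha : a ∈ D.V (v i)) (hc : c ∈ D.V (v j)) : a * c = c * a :=
  D.commute_of_near hd (hC.near D hij hj) ha hc

theorem Chain.comm_last (hC : D.Chain L L v Pc) {i : ℕ} (hi : i + D.b ≤ L) :
    ⁅D.V (v (i + D.b)), Pc (i + D.b - 1)⁆ = ⁅D.V (v i), D.V (v (i + D.b))⁆ := by
  rw [(hC.crit' D hi).symm.comm_eq D, Subgroup.commutator_comm]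

/-- The commutator of a critical pair is central in the intermediate vertices. -/
theorem Chain.comm_le_G (hC : D.Chain L L v Pc) (hb : 2 ≤ D.b) {i j : ℕ} (h1 : 1 ≤ j)
    (hj : j < D.b) (hL : i + j + D.b ≤ L) :
    ⁅D.V (v i), D.V (v (i + D.b))⁆ ≤ D.V (v (i + j)) ⊓
      Subgroup.centralizer (D.Gv (v (i + j)) : Set X) := by
  have hc := hC.crit' D (i := i) (by omega)
  -- the step
  have hstep : ∀ j, j + 1 < D.b → i + (j + 1) + D.b ≤ L → ∀ r ∈ ⁅D.V (v i), D.V (v (i + D.b))⁆,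
      r ∈ Subgroup.centralizer (Pc (i + j) : Set X) → r ∈ D.V (v (i + j)) →
      r ∈ D.V (v (i + (j + 1))) ⊓ Subgroup.centralizer (D.Gv (v (i + (j + 1))) : Set X) := by
    intro j hj hL r hr hrc hrV
    have hmem : r ∈ D.V (v (i + j + 1)) :=
      D.center_mem (hC.left _ (by omega)) (hC.right _ (by omega)) hrV hrc
    refine ⟨hmem, D.mem_centralizer_G (hC.gen (i + j) (by omega) (by omega)) hrc fun g hg => ?_⟩
    have hc' := hC.crit' D (i := i + j + 1) (by omega)
    obtain ⟨u, hu, c, hcQ, rfl⟩ := hc'.exists_decomp D hg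
    have hry : r ∈ D.V (v (i + D.b)) := (hc.comm_le_last D hr).1
    have e : r * u = u * r := hC.commute D (i := i + D.b) (j := i + j + 1 + D.b) (by omega)
      (by omega) (by omega) hry hu
    calc u * c * r = u * (c * r) := mul_assoc _ _ _
      _ = u * (r * c) := by rw [D.comm c hcQ r hmem]
      _ = u * r * c := (mul_assoc _ _ _).symm
      _ = r * u * c := by rw [e]
      _ = r * (u * c) := mul_assoc _ _ _
  induction j with
  | zero => omega
  | succ j ih =>
    intro r hr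
    rcases Nat.eq_zero_or_pos j with rfl | hj0
    · exact hstep 0 hj hL r hr (hc.comm_le_center D hr) (hc.comm_le_V D hr)
    · have h := ih hj0 (by omega) (by omega) hr
      exact hstep j hj hL r hr
        (Subgroup.centralizer_le (D.le_G (hC.left _ (by omega))) h.2) h.1

/-- The critical distance is at most two. -/
theorem false_of_chain (hb3 : 2 < D.b) {v : ℕ → Γ} {Pc : ℕ → Subgroup X}
    (hC : D.Chain (2 * D.b + 1) (2 * D.b + 1) v Pc) : False := by
  have hb : 2 ≤ D.b := by omega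
  set b := D.b with hbdef
  set x := v b with hx
  set C1 := Subgroup.centralizer (D.Gv (v (b + 1)) : Set X) with hC1
  have hWG : D.W x ≤ D.Gv x := (D.W_le_Q hb x).trans (D.Q_le_G x)
  have hW1 : D.W x ≤ Pc 1 := (D.W_le (k := b - 2) (by omega)
    (D.near_symm (hC.near D (i := 2) (j := b) (by omega) (by omega)))).trans
    (D.Q_le (hC.right 1 (by omega)))
  have hc1 := hC.crit' D (i := 1) (by omega)
  have hval : ∀ w ∈ D.W x, ∀ u ∈ D.V (v 1), ⁅w, u⁆ ∈ Subgroup.centralizer (D.Gv x : Set X) := by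
    intro w hw u hu
    have h1 : ⁅w, u⁆ ∈ ⁅D.V (v 1), Pc 1⁆ := by
      rw [Subgroup.commutator_comm]
      exact Subgroup.commutator_mem_commutator (hW1 hw) hu
    rw [hc1.comm_eq D] at h1
    have h2 := (hC.comm_le_G D hb (i := 1) (j := b - 1) (by omega) (by omega) (by omega) h1).2
    rwa [show 1 + (b - 1) = b by omega] at h2
  let K : Subgroup X :=
    { carrier := {w | w ∈ D.W x ∧ ∀ u ∈ D.V (v 1), ⁅w, u⁆ ∈ C1}
      one_mem' := ⟨one_mem _, fun u _ => by simp⟩
      mul_mem' := fun {a c} ha hc => ⟨(D.W x).mul_mem ha.1 hc.1, fun u hu => by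
        have e : a * ⁅c, u⁆ * a⁻¹ = ⁅c, u⁆ := by
          rw [hval c hc.1 u hu a (hWG ha.1), mul_inv_cancel_right]
        have : ⁅a * c, u⁆ = ⁅c, u⁆ * ⁅a, u⁆ := by
          calc ⁅a * c, u⁆ = a * ⁅c, u⁆ * a⁻¹ * ⁅a, u⁆ := by
                simp [commutatorElement_def, mul_assoc]
            _ = _ := by rw [e]
        rw [this]; exact C1.mul_mem (hc.2 u hu) (ha.2 u hu)⟩
      inv_mem' := fun {a} ha => ⟨(D.W x).inv_mem ha.1, fun u hu => by
        have e : a * ⁅a⁻¹, u⁆ * a⁻¹ = ⁅a⁻¹, u⁆ := by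
          rw [hval _ ((D.W x).inv_mem ha.1) u hu a (hWG ha.1), mul_inv_cancel_right]
        have : ⁅a⁻¹, u⁆ = ⁅a, u⁆⁻¹ := by
          rw [← e]; simp [commutatorElement_def, mul_assoc]
        rw [this]; exact C1.inv_mem (ha.2 u hu)⟩ }
  have hone : ∀ {a u : X}, a * u = u * a → ⁅a, u⁆ ∈ C1 := fun h => by
    rw [commutatorElement_eq_one_iff_mul_comm.2 h]; exact one_mem _
  have hUK : D.U (Pc (b - 1)) ≤ K := iSup₂_le fun w hw a ha => by
    have hI := hC.right (b - 1) (by omega)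
    rw [show b - 1 + 1 = b by omega] at hI
    refine ⟨D.U_le_W hI (D.V_le_U hw ha), fun u hu => hone ?_⟩
    exact D.commute_of_near (k := 1 + (b - 1 - 1)) (by omega)
      (D.near_add (D.near_one hw (hC.left _ (by omega)))
        (D.near_symm (hC.near D (i := 1) (j := b - 1) (by omega) (by omega)))) ha hu
  have hVK : D.V x ≤ K := fun a ha => ⟨D.U_le_W (hC.left b (by omega))
    (D.V_le_U (hC.left b (by omega)) ha), fun u hu => hone
      (hC.commute D (i := 1) (j := b) (by omega) (by omega) (by omega) hu ha).symm⟩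
  have hc0 := hC.crit' D (i := 0) (by omega)
  rw [Nat.zero_add] at hc0
  have hcb := hC.crit' D (i := b) (by omega)
  -- the two Sylow subgroups act on `K`
  have hz : ∀ z ∈ D.V (v 0), ∀ w ∈ K, z * w * z⁻¹ ∈ K := by
    intro z hz w hw
    have hzG : z ∈ D.Gv x := D.le_G hc0.last (hc0.mem_last hz)
    refine ⟨D.W_conj hzG hw.1, fun u hu => ?_⟩
    have e : z * u = u * z := hC.commute D (i := 0) (j := 1) (by omega) (by omega) (by omega) hz hu
    have e1 : ⁅z * w * z⁻¹, u⁆ = z * ⁅w, u⁆ * z⁻¹ := by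
      have e' : z⁻¹ * u * z = u := by rw [mul_assoc, ← e]; group
      calc ⁅z * w * z⁻¹, u⁆ = z * ⁅w, z⁻¹ * u * z⁆ * z⁻¹ := by
            simp [commutatorElement_def, mul_assoc]
        _ = _ := by rw [e']
    rw [e1, hval w hw.1 u hu z hzG, mul_inv_cancel_right]
    exact hw.2 u hu
  have hy : ∀ y ∈ D.V (v (b + b)), ∀ w ∈ K, y * w * y⁻¹ ∈ K := by
    intro y hy w hw
    have hyG : y ∈ D.Gv x := D.le_G hcb.first (hcb.mem_first hy)
    have hW2 : D.W x ≤ Pc (b - 1 + b - 1) := (D.W_le (k := b - 2) (by omega)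
      (z := v (b + b - 2)) (by
        have := hC.near D (i := b) (j := b + b - 2) (by omega) (by omega)
        rwa [show b + b - 2 - b = b - 2 by omega] at this)).trans (by
        rw [show b - 1 + b - 1 = b + b - 2 by omega]; exact D.Q_le (hC.left _ (by omega)))
    have hc2 := hC.crit' D (i := b - 1) (by omega)
    obtain ⟨a, ha, c, hcQ, rfl⟩ := hc2.symm.exists_decomp D (hW2 hw.1)
    have hcP : c ∈ Pc (b + b - 1) := by
      rw [show b - 1 + b = b + b - 1 by omega] at hcQ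
      exact D.Q_le (hC.left _ (by omega)) hcQ
    obtain ⟨a', ha', c', hc', rfl⟩ := hcb.symm.exists_decomp D hcP
    have haK : a ∈ K := hUK (D.V_le_U (hC.left (b - 1) (by omega)) ha)
    have hc'K : c' ∈ K := by
      simpa [mul_assoc] using K.mul_mem (K.mul_mem (K.inv_mem (hVK ha')) (K.inv_mem haK)) hw
    have hfix : y * c' * y⁻¹ = c' := by rw [← D.comm c' hc' y hy, mul_inv_cancel_right]
    have hya : y * a * y⁻¹ ∈ K := by
      refine ⟨D.W_conj hyG haK.1, fun u hu => ?_⟩
      set u' := y⁻¹ * u * y with hu'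
      have hu'P : u' ∈ Pc (b - 1) := by
        have hI := hC.right (b - 1) (by omega)
        rw [show b - 1 + 1 = b by omega] at hI
        refine D.Q_le hI ?_
        have := D.normQ y⁻¹ ((D.Gv x).inv_mem hyG) u
          ((hC.le_Q' D (i := 1) (j := b) (by omega) (by omega) (by omega)).1 hu)
        simpa [hu', hx] using this
      have hr : ⁅a, u'⁆ ∈ ⁅D.V (v (b - 1)), D.V (v (b - 1 + D.b))⁆ := by
        rw [← hc2.comm_eq D]; exact Subgroup.commutator_mem_commutator ha hu'P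
      have hr0 := (hC.comm_le_G D hb (i := b - 1) (j := 1) le_rfl (by omega) (by omega) hr).2
      rw [show b - 1 + 1 = b by omega] at hr0
      have hr2 := (hC.comm_le_G D hb (i := b - 1) (j := 2) (by omega) (by omega) (by omega) hr).2
      rw [show b - 1 + 2 = b + 1 by omega] at hr2
      have e1 : ⁅y * a * y⁻¹, u⁆ = y * ⁅a, u'⁆ * y⁻¹ := by
        simp [hu', commutatorElement_def, mul_assoc]
      rw [e1, hr0 y hyG, mul_inv_cancel_right]
      exact hr2
    have hya' : y * a' * y⁻¹ ∈ K := hVK (D.normV y hyG a' ha')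
    have e : y * (a * (a' * c')) * y⁻¹ = (y * a * y⁻¹) * ((y * a' * y⁻¹) * (y * c' * y⁻¹)) := by group
    rw [e, hfix]
    exact K.mul_mem hya (K.mul_mem hya' hc'K)
  -- move one edge to the other
  set H : Subgroup X := D.V (v 0) ⊔ D.V (v (b + b)) with hH
  have hHK : H ≤ Subgroup.normalizer (K : Set X) :=
    sup_le (le_normalizer_of_conj hz) (le_normalizer_of_conj hy)
  have hQG := D.Q_le_G x
  have hHG : H ≤ D.Gv x := sup_le (fun z hz => D.le_G hc0.last (hc0.mem_last hz))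
    (fun z hz => D.le_G hcb.first (hcb.mem_first hz))
  have hgen : D.Gv x ≤ H ⊔ D.Q x := by
    have h1 := hC.gen (b - 1) (by omega) (by omega)
    rw [show b - 1 + 1 = b by omega] at h1
    rw [← hx] at h1
    rw [← h1, hcb.sup_first D, hc0.sup_last D]
    exact sup_le (sup_le (le_trans le_sup_left le_sup_left) le_sup_right)
      (sup_le (le_trans le_sup_right le_sup_left) le_sup_right)
  have hIl : D.I x (Pc (b - 1)) := hc0.last
  obtain ⟨g, hg, hgP⟩ := D.conj_I hIl hcb.first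
  obtain ⟨h, hh, a, ha, rfl⟩ := exists_mul_of_mem_sup
    (le_normalizer_of_conj fun g hg => D.normQ g (hHG hg)) (hgen hg)
  rw [cj_mul, cj_eq_self_of_mem (D.Q_le hIl ha)] at hgP
  have hUb : D.U (Pc b) ≤ K := by
    intro t ht
    have h1 : h⁻¹ * t * h ∈ D.U (Pc (b - 1)) := by
      have := D.conj_mem_U h⁻¹ ht
      rw [hgP, cj_inv_cj, inv_inv] at this
      exact this
    have := (Subgroup.mem_normalizer_iff.1 (hHK hh) _).1 (hUK h1)
    simpa [mul_assoc] using this
  -- contradiction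
  refine D.not_central (hC.right b (by omega)) ?_
  have e := hC.comm_last D (i := 1) (by omega)
  rw [show 1 + D.b - 1 = b by omega, show 1 + D.b = b + 1 by omega, Subgroup.commutator_comm (D.V (v 1))] at e
  rw [e, Subgroup.commutator_le]
  intro a ha u hu
  exact (hUb (D.V_le_U (hC.right b (by omega)) ha)).2 u hu

end Sys

end CfsgLib.PushUp.CommonCore
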