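import Cfsg.Agent.Lib.PushUp.CommonCore.Family
import Cfsg.Agent.Lib.PushUp.OddTransfer.Main

/-!
For odd `p` the centre and one further functor control transfer.
-/

set_option autoImplicit false
set_option linter.style.haveILetI false
set_option linter.unusedSectionVars false

namespace CfsgLib.PushUp.CommonCore

open CfsgLib.ConjFunctor (transferTarget indSet TransferOK Constrained EngelOnCore engel_transfer
  transferOK_of_constrained' isConjugacyFunctor_indSet isConjugacyFunctor_inducedFunctor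
  inducedFunctor_map normalizer_le_normalizer_functor tRel_of_transferOK mem_of_transfer_invariant
  commutator_sylow_le_target transferTarget_normalized transferTarget_le conj_mem_cj cj cj_of_normal)
open CfsgLib.PushUp.OddTransfer (jTilde jTildeIn map_jTildeIn normalizer_le_jTilde NaturalData)
open scoped commutatorElement IsMulCommutative

universe u

/-- The centre, as a functor. -/
def centerFun (Q : Type u) [Group Q] : Subgroup Q := Subgroup.center Q

/-- The centre and `Kfun`. -/
def pairFunctors (p : ℕ) : Set (∀ (Q : Type u) [Group Q], Subgroup Q) :=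
  {W | W = @centerFun ∨ W = @Kfun p}

variable {X : Type u} [Group X] {p : ℕ}

theorem inducedFunctor_center (T : Subgroup X) :
    Cfsg.inducedFunctor @centerFun T = T ⊓ Subgroup.centralizer (T : Set X) := by
  refine le_antisymm ?_ ?_
  · rintro _ ⟨x, hx, rfl⟩
    exact ⟨x.2, fun y hy => congrArg Subtype.val (Subgroup.mem_center_iff.1 hx ⟨y, hy⟩)⟩
  · rintro y ⟨hy1, hy2⟩
    exact ⟨⟨y, hy1⟩, Subgroup.mem_center_iff.2 fun g => Subtype.ext (hy2 g g.2), rfl⟩

/-- Two reductions put `u` in Engel degree two on every chief factor of the core. -/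
theorem engelOnCore_of_reduction [Finite X] [Fact p.Prime] (hp2 : p ≠ 2) {u : X} {R V : Subgroup X}
    (hR : R.Normal) (hV : V.Normal) (h1 : ∀ s ∈ Cfsg.pCore p X, ⁅⁅s, u⁆, u⁆ ∈ R)
    (h2 : ∀ s ∈ R, ⁅⁅s, u⁆, u⁆ ∈ V) (h3 : ∀ v ∈ V, ⁅⁅v, u⁆, u⁆ = 1) : EngelOnCore p u := by
  intro U W hc hU
  obtain ⟨hlt, hUn, hWn, hmin⟩ := hc
  have hp3 : 3 ≤ p := lt_of_le_of_ne (Fact.out : p.Prime).two_le (Ne.symm hp2)
  haveI := hUn
  haveI := hWn
  set π := QuotientGroup.mk' W with hπ
  have hmem : ∀ {x : X}, π x = 1 ↔ x ∈ W := fun {x} => QuotientGroup.eq_one_iff x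
  have hinU : ∀ s ∈ U, ⁅⁅s, u⁆, u⁆ ∈ U := fun s hs =>
    Subgroup.commutator_le_left U ⊤ (Subgroup.commutator_mem_commutator
      (Subgroup.commutator_le_left U ⊤ (Subgroup.commutator_mem_commutator hs (Subgroup.mem_top u)))
      (Subgroup.mem_top u))
  -- reduce along `R` and along `V`
  have hred : ∀ (N : Subgroup X), N.Normal → (∀ s ∈ U ⊓ N, ⁅⁅s, u⁆, u⁆ ∈ W) →
      ¬ U ⊓ N ≤ W → ∀ s ∈ U, ⁅⁅s, u⁆, u⁆ ∈ W := by
    intro N hN h hne s hs
    haveI := hN
    haveI : (U ⊓ N).Normal := inferInstance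
    have e : (U ⊓ N) ⊔ W = U := (hmin _ inferInstance le_sup_right
      (sup_le inf_le_left hlt.le)).resolve_left fun h' => hne (le_sup_left.trans h'.le)
    obtain ⟨r, hr, w, hw, rfl⟩ := Subgroup.mem_sup_of_normal_right.1 (e.ge hs)
    rw [← hmem, map_commutatorElement, map_commutatorElement, map_mul, hmem.2 hw, mul_one,
      ← map_commutatorElement, ← map_commutatorElement, hmem]
    exact h r hr
  have hkey : ∀ s ∈ U, ⁅⁅s, u⁆, u⁆ ∈ W := by
    by_cases hUR : U ⊓ R ≤ W
    · exact fun s hs => hUR ⟨hinU s hs, h1 s (hU hs)⟩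
    refine hred R hR (fun r hr => ?_) hUR
    by_cases hUV : U ⊓ V ≤ W
    · exact hUV ⟨hinU r hr.1, h2 r hr.2⟩
    exact hred V hV (fun v hv => by rw [h3 v hv.2]; exact W.one_mem) hUV r hr.1
  -- powers
  have hcomm : ∀ s ∈ U, Commute (π ⁅s, u⁆) (π u) := fun s hs => by
    refine commutatorElement_eq_one_iff_commute.1 ?_
    rw [← map_commutatorElement]
    exact hmem.2 (hkey s hs)
  have hpow : ∀ s ∈ U, ∀ i : ℕ, Commute (π ⁅s, u ^ i⁆) (π u) := by
    intro s hs i
    induction i with
    | zero => simp [commutatorElement_def]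
    | succ i ih =>
      have e : ⁅s, u ^ (i + 1)⁆ = ⁅s, u⁆ * (u * ⁅s, u ^ i⁆ * u⁻¹) := by
        rw [pow_succ', commutatorElement_def, commutatorElement_def, commutatorElement_def]
        group
      rw [e, map_mul, map_mul, map_mul, map_inv, ih.symm.eq, mul_inv_cancel_right]
      exact (hcomm s hs).mul_left ih
  refine OddTransfer.iterCommutator_le_of_le (show 2 ≤ p - 1 by omega) ?_
  rw [ConjFunctor.iterCommutator_succ, ConjFunctor.iterCommutator_succ, ConjFunctor.iterCommutator_zero]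
  refine Subgroup.commutator_le.2 fun a ha b hb => ?_
  have hac : Commute (π a) (π u) := by
    have hle : ⁅U, Subgroup.zpowers u⁆ ≤ (Subgroup.centralizer {π u}).comap π :=
      Subgroup.commutator_le.2 fun s hs b hb => by
        obtain ⟨i, rfl⟩ := Submonoid.mem_powers_iff _ _ |>.1
          ((isOfFinOrder_of_finite u).mem_powers_iff_mem_zpowers.2 hb)
        exact Subgroup.mem_centralizer_singleton_iff.2 (hpow s hs i)
    exact Subgroup.mem_centralizer_singleton_iff.1 (hle ha)
  obtain ⟨i, rfl⟩ := Submonoid.mem_powers_iff _ _ |>.1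
    ((isOfFinOrder_of_finite u).mem_powers_iff_mem_zpowers.2 hb)
  rw [← hmem, map_commutatorElement, map_pow]
  exact commutatorElement_eq_one_iff_commute.2 (hac.pow_right i)

variable [Finite X] [Fact p.Prime]

/-- If `Ω₁(Z(T))` is central then so is `Z(T)`, in the constrained case. -/
theorem central_of_omega (T : Sylow p X) (hc : Constrained p X)
    (hΩ : ∀ z ∈ Cfsg.omegaOneCenter p (T : Subgroup X), ∀ g : X, g * z = z * g) :
    ∀ z ∈ (T : Subgroup X) ⊓ Subgroup.centralizer ((T : Subgroup X) : Set X), ∀ g : X, g * z = z * g := by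
  classical
  set S := (T : Subgroup X)
  set Q := Cfsg.pCore p X
  haveI hQn : Q.Normal := Cfsg.pCore_normal p X
  have hQS : Q ≤ S := Cores.pCore_le_sylow T
  set A := Q ⊓ Subgroup.centralizer (Q : Set X) with hA
  haveI : A.Normal := inferInstance
  haveI : IsMulCommutative A := ⟨⟨fun a b => Subtype.ext (b.2.2 a a.2.1)⟩⟩
  haveI : Fintype (X ⧸ S) := Fintype.ofFinite _
  suffices H : ∀ (j : ℕ) (z : X), z ∈ S → (∀ t ∈ S, t * z = z * t) → z ^ p ^ j = 1 →
      ∀ g : X, g * z = z * g by
    intro z hz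
    obtain ⟨j, hj⟩ := T.2 ⟨z, hz.1⟩
    exact H j z hz.1 hz.2 (congrArg Subtype.val hj)
  intro j
  induction j with
  | zero => intro z _ _ h g; rw [pow_zero, pow_one] at h; simp [h]
  | succ j ih =>
    intro z hz hzc hzj
    have hzp : ∀ g : X, g * z ^ p = z ^ p * g :=
      ih (z ^ p) (pow_mem hz p) (fun t ht => (show Commute t z from hzc t ht).pow_right p)
        (by rw [← pow_mul, ← pow_succ', hzj])
    have hzC : z ∈ Subgroup.centralizer (Q : Set X) := fun q hq => hzc q (hQS hq)
    have hzA : z ∈ A := ⟨hc hzC, hzC⟩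
    set zA : A := ⟨z, hzA⟩
    let f : X ⧸ S → A := fun q => MulAut.conjNormal q.out zA
    have heq : ∀ (g : X) (q : X ⧸ S), MulAut.conjNormal g (f q) = f (g • q) := by
      intro g q
      obtain ⟨s, hs, e⟩ : ∃ s ∈ S, (g • q).out = g * q.out * s := by
        refine ⟨(g * q.out)⁻¹ * (g • q).out, QuotientGroup.eq.1 ?_, by group⟩
        rw [QuotientGroup.out_eq']
        conv_rhs => rw [← QuotientGroup.out_eq' q]
        rfl
      apply Subtype.ext
      simp only [f, MulAut.conjNormal_apply, e, zA]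
      calc g * (q.out * z * q.out⁻¹) * g⁻¹ = g * q.out * (s * z * s⁻¹) * (g * q.out)⁻¹ := by
            rw [hzc s hs]; group
        _ = _ := by group
    set z' := ∏ q, f q
    have hz' : ∀ g : X, g * (z' : X) = (z' : X) * g := by
      intro g
      have e : MulAut.conjNormal g z' = z' := by
        rw [map_prod]
        exact Fintype.prod_equiv (MulAction.toPerm g) _ _ fun q => heq g q
      have := congrArg Subtype.val e
      rw [MulAut.conjNormal_apply] at this
      exact mul_inv_eq_iff_eq_mul.1 this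
    set m := Fintype.card (X ⧸ S)
    have hw : (z' * (zA ^ m)⁻¹) ^ p = 1 := by
      rw [show z' * (zA ^ m)⁻¹ = ∏ q, (f q * zA⁻¹) by
        rw [Finset.prod_mul_distrib, Finset.prod_const, inv_pow, Finset.card_univ], ← Finset.prod_pow]
      refine Finset.prod_eq_one fun q _ => ?_
      rw [mul_pow, inv_pow, mul_inv_eq_one, ← map_pow]
      apply Subtype.ext
      rw [MulAut.conjNormal_apply, SubmonoidClass.coe_pow, hzp, mul_inv_cancel_right]
    set w := (z' : X) * (z ^ m)⁻¹
    have hwΩ : w ∈ Cfsg.omegaOneCenter p S := by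
      refine ThompsonJ.mem_omegaOne ⟨S.mul_mem (hQS z'.2.1) (S.inv_mem (S.pow_mem hz m)), fun t ht => ?_⟩ ?_
      · exact ((show Commute t z' from hz' t).mul_right ((show Commute t z from hzc t ht).pow_right m).inv_right).eq
      · simpa [w, zA] using congrArg Subtype.val hw
    have hzm : ∀ g : X, Commute g (z ^ m) := fun g => by
      have := ((show Commute g w from hΩ w hwΩ g).inv_right).mul_right (show Commute g (z' : X) from hz' g)
      simpa [w, mul_assoc] using this
    have hcop : Nat.Coprime m (orderOf z) := by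
      obtain ⟨i, -, hi⟩ := (Nat.dvd_prime_pow (Fact.out : p.Prime)).1 (orderOf_dvd_of_pow_eq_one hzj)
      rw [hi]
      refine Nat.Coprime.pow_right i (Nat.Coprime.symm ((Fact.out : p.Prime).coprime_iff_not_dvd.2 ?_))
      rw [show m = S.index from Nat.card_eq_fintype_card.symm]
      exact T.not_dvd_index
    obtain ⟨k, hk⟩ := exists_pow_eq_self_of_coprime hcop
    intro g
    rw [← hk]
    exact ((hzm g).pow_right k).eq

/-- The transfer into the target in the left branch of the dichotomy. -/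
theorem constrained_left (T : Sylow p X) {D H0 : Subgroup X} {N : Subgroup X} [N.Normal]
    (hH0 : ∀ g, g ∈ H0 ↔ ∀ x ∈ Cfsg.pCore p X, g * x * g⁻¹ * x⁻¹ ∈ D) (hSH0 : (T : Subgroup X) ≤ H0)
    (hNT : N ⊔ (T : Subgroup X) = ⊤) (hND : (T : Subgroup X) ⊓ ⁅N, N⁆ ≤ D) : H0 = ⊤ := by
  set S := (T : Subgroup X)
  set Q := Cfsg.pCore p X
  haveI hQn : Q.Normal := Cfsg.pCore_normal p X
  have hQS : Q ≤ S := Cores.pCore_le_sylow T
  refine OddTransfer.eq_top_of_sylow_le T hSH0 fun k hk => (hH0 k).2 fun x hx => ?_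
  have hkN : k ∈ N := by
    refine (QuotientGroup.eq_one_iff k).1 (orderOf_eq_one_iff.1 ?_)
    have hq : IsPGroup p (X ⧸ N) := by
      have h1 : S.map (QuotientGroup.mk' N) = ⊤ := by
        rw [← QuotientGroup.ker_mk' N] at hNT
        refine Subgroup.comap_injective (QuotientGroup.mk'_surjective N) ?_
        rw [Subgroup.comap_map_eq, Subgroup.comap_top, sup_comm]
        exact hNT
      have h2 := T.2.map (QuotientGroup.mk' N)
      rw [h1] at h2
      exact h2.of_equiv Subgroup.topEquiv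
    obtain ⟨j, hj⟩ := IsPGroup.iff_orderOf.1 hq (k : X ⧸ N)
    refine Nat.eq_one_of_dvd_coprimes (hk.pow_right j) (orderOf_map_dvd (QuotientGroup.mk' N) k) ?_
    exact (show orderOf ((QuotientGroup.mk' N) k) = p ^ j from hj) ▸ dvd_rfl
  set R := Q ⊓ ⁅N, N⁆ with hR
  haveI : R.Normal := inferInstance
  set τ := QuotientGroup.mk' R with hτ
  set c := k * x * k⁻¹ * x⁻¹ with hc'
  have hcQ : c ∈ Q := Q.mul_mem (hQn.conj_mem x hx k) (Q.inv_mem hx)
  have hcN : c ∈ N := by
    have h1 := N.mul_mem hkN ((inferInstance : N.Normal).conj_mem k⁻¹ (N.inv_mem hkN) x)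
    rw [hc']
    convert h1 using 1
    group
  have hcomm : Commute (τ k) (τ c) := by
    have h1 : ⁅k, c⁆ ∈ R := ⟨Q.mul_mem (hQn.conj_mem c hcQ k) (Q.inv_mem hcQ),
      Subgroup.commutator_mem_commutator hkN hcN⟩
    have h2 : τ ⁅k, c⁆ = 1 := (QuotientGroup.eq_one_iff _).2 h1
    rw [map_commutatorElement] at h2
    exact commutatorElement_eq_one_iff_commute.1 h2
  have hpow : ∀ i : ℕ, τ k ^ i * τ x = τ c ^ i * τ x * τ k ^ i := by
    intro i
    induction i with
    | zero => simp
    | succ i ih =>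
      have h1 : τ k * τ x = τ c * τ x * τ k := by
        rw [hc']; simp [mul_assoc]
      calc τ k ^ (i + 1) * τ x = τ k * (τ k ^ i * τ x) := by rw [pow_succ', mul_assoc]
        _ = (τ k * τ c ^ i) * τ x * τ k ^ i := by rw [ih]; simp [mul_assoc]
        _ = τ c ^ i * (τ k * τ x) * τ k ^ i := by rw [(hcomm.pow_right i).eq]; simp [mul_assoc]
        _ = _ := by rw [h1, pow_succ, pow_succ']; simp [mul_assoc]
  have hone : τ c ^ orderOf k = 1 := by
    have h1 := hpow (orderOf k)
    rw [← map_pow τ k, pow_orderOf_eq_one, map_one, one_mul, mul_one] at h1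
    exact mul_eq_right.1 h1.symm
  have hc1 : τ c = 1 := by
    obtain ⟨j, hj⟩ := IsPGroup.iff_orderOf.1 (T.2.to_le hQS) (⟨c, hcQ⟩ : Q)
    rw [Subgroup.orderOf_mk] at hj
    refine orderOf_eq_one_iff.1 (Nat.eq_one_of_dvd_coprimes (hk.pow_right j)
      (orderOf_dvd_iff_pow_eq_one.2 hone) ?_)
    exact hj ▸ orderOf_map_dvd τ c
  exact hND ⟨hQS hcQ, ((QuotientGroup.eq_one_iff c).1 hc1).2⟩

end CfsgLib.PushUp.CommonCore
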