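import Cfsg.Agent.Lib.PushUp.CommonCore.Constrained

/-!
The constrained case, and control of transfer by the centre and `Kfun`.
-/

set_option autoImplicit false
set_option linter.style.haveILetI false
set_option linter.unusedSectionVars false

namespace CfsgLib.PushUp.CommonCore

open CfsgLib.ConjFunctor (transferTarget indSet TransferOK Constrained EngelOnCore engel_transfer
  transferOK_of_constrained' isConjugacyFunctor_indSet isConjugacyFunctor_inducedFunctor
  inducedFunctor_map normalizer_le_normalizer_functor tRel_of_transferOK mem_of_transfer_invariant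
  commutator_sylow_le_target transferTarget_normalized transferTarget_le conj_mem_cj cj cj_of_normal)
open CfsgLib.PushUp.OddTransfer (jTilde jTildeIn map_jTildeIn normalizer_le_jTilde NaturalData)
open scoped commutatorElement

universe u

variable {p : ℕ} [Fact p.Prime]

theorem pairFunctors_spec (hp2 : p ≠ 2) :
    ∀ W ∈ pairFunctors.{u} p, Cfsg.IsCharPFunctor.{u} p W := by
  rintro W (rfl | rfl)
  · exact isCharPFunctor_center p
  · exact isCharPFunctor_Kfun hp2

omit [Fact p.Prime] in
theorem centerFun_mem : @centerFun.{u} ∈ pairFunctors.{u} p := Or.inl rfl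

omit [Fact p.Prime] in
theorem Kfun_mem : @Kfun.{u} p ∈ pairFunctors.{u} p := Or.inr rfl

variable {X : Type u} [Group X] [Finite X]

omit [Fact p.Prime] [Finite X] in
theorem piece_le {W : ∀ (Q : Type u) [Group Q], Subgroup Q} (hW : W ∈ pairFunctors p) (T : Subgroup X) :
    T ⊓ ⁅Subgroup.normalizer (Cfsg.inducedFunctor W T : Set X),
      Subgroup.normalizer (Cfsg.inducedFunctor W T : Set X)⁆ ≤
      transferTarget (indSet (pairFunctors p)) ⊤ T := by
  refine le_trans (le_of_eq ?_) (le_iSup₂ (f := fun V (_ : V ∈ indSet (pairFunctors p)) =>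
    T ⊓ ⁅⊤ ⊓ Subgroup.normalizer (V T : Set X), ⊤ ⊓ Subgroup.normalizer (V T : Set X)⁆) _ ⟨W, hW, rfl⟩)
  rw [top_inf_eq]

/-- Inside `T` the functor is computed in `J̃(T)`. -/
theorem inducedFunctor_Kfun_jTilde (hp2 : p ≠ 2) {T : Subgroup X} (hT : IsPGroup p T)
    (h : jTildeIn p T ≠ ⊤) :
    Cfsg.inducedFunctor (@Kfun p) T = Cfsg.inducedFunctor (@Kfun p) (jTilde p T) := by
  rw [← map_jTildeIn, inducedFunctor_map (isCharPFunctor_Kfun hp2) T.subtype (hT.to_subgroup _)
    fun x _ hx => T.subtype_injective (hx.trans T.subtype.map_one.symm)]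
  exact congrArg (Subgroup.map T.subtype) (Kfun_of_ne h)

set_option maxHeartbeats 800000 in
/-- The constrained case. -/
theorem constrained_case (hp2 : p ≠ 2) (hc : Constrained p X)
    (hM : ∀ M : Subgroup X, M ≠ ⊤ → TransferOK p (pairFunctors.{u} p) M) (T : Sylow p X) :
    Cfsg.pCore p X ⊓ ⁅(⊤ : Subgroup X), ⊤⁆ ≤
      transferTarget (indSet (pairFunctors p)) ⊤ (T : Subgroup X) := by
  classical
  set S := (T : Subgroup X) with hS
  set Q := Cfsg.pCore p X with hQ
  set D := transferTarget (indSet (pairFunctors p)) ⊤ S with hD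
  haveI hQn : Q.Normal := Cfsg.pCore_normal p X
  have hQS : Q ≤ S := Cores.pCore_le_sylow T
  have hsp := pairFunctors_spec.{u} hp2
  have hDS : ⁅S, S⁆ ≤ D := commutator_sylow_le_target hsp ⟨_, centerFun_mem⟩ T
  have hDnorm : ∀ t ∈ S, cj t D ≤ D := transferTarget_normalized (isConjugacyFunctor_indSet hsp) T.2 le_top
  have hcf : ∀ W ∈ pairFunctors p, Cfsg.IsConjugacyFunctor p (Cfsg.inducedFunctor (G := X) W) := fun W hW =>
    isConjugacyFunctor_inducedFunctor (hsp W hW)
  have hdoneN : ∀ W ∈ pairFunctors p, (Cfsg.inducedFunctor W S).Normal → Q ⊓ ⁅(⊤ : Subgroup X), ⊤⁆ ≤ D := by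
    intro W hW hn
    refine le_trans ?_ (piece_le hW S)
    rw [Subgroup.normalizer_eq_top_iff.2 hn]
    exact inf_le_inf_right _ hQS
  by_cases hZn : (Cfsg.inducedFunctor @centerFun S).Normal
  · exact hdoneN _ centerFun_mem hZn
  by_cases hKn : (Cfsg.inducedFunctor (@Kfun p) S).Normal
  · exact hdoneN _ Kfun_mem hKn
  have hNS : Subgroup.normalizer (S : Set X) ≠ ⊤ := fun e => hKn (Subgroup.normalizer_eq_top_iff.1
    (top_le_iff.1 (e ▸ normalizer_le_normalizer_functor (hcf _ Kfun_mem) T.2)))
  have hStop : S ≠ ⊤ := fun e => hNS (top_le_iff.1 (e.ge.trans Subgroup.le_normalizer))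
  let H0 : Subgroup X :=
    { carrier := {g | ∀ x ∈ Q, g * x * g⁻¹ * x⁻¹ ∈ D}
      one_mem' := fun x hx => by simp
      mul_mem' := fun {g h} hg hh x hx => by
        have := D.mul_mem (hg _ (hQn.conj_mem x hx h)) (hh x hx)
        convert this using 1
        group
      inv_mem' := fun {g} hg x hx => by
        have := D.inv_mem (hg _ (hQn.conj_mem x hx g⁻¹))
        convert this using 1
        group }
  have hdone : H0 = ⊤ → Q ⊓ ⁅(⊤ : Subgroup X), ⊤⁆ ≤ D := by
    intro e x hx
    refine mem_of_transfer_invariant T hDS (hQS hx.1) (by rw [commutator_def]; exact hx.2) fun k g _ => ?_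
    have hzQ : g⁻¹ * x ^ k * g ∈ Q := by simpa using hQn.conj_mem _ (Q.pow_mem hx.1 k) g⁻¹
    have h1 := (e.ge (Subgroup.mem_top g) : g ∈ H0) _ hzQ
    have h2 := hDnorm _ (S.inv_mem (hQS hzQ)) (conj_mem_cj h1)
    convert h2 using 1
    group
  have hover : ∀ M : Subgroup X, M ≠ ⊤ → S ≤ M → M ≤ H0 := fun M hMne hSM g hg x hx =>
    tRel_of_transferOK hsp T (hM M hMne) hSM Q hQS g hg (by rw [cj_of_normal]; exact hQS) x hx
  by_cases hH0 : H0 = ⊤
  · exact hdone hH0
  have hSH0 : S ≤ H0 := hover S hStop le_rfl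
  obtain ⟨M, hMco, hH0M⟩ := (eq_top_or_exists_le_coatom H0).resolve_left hH0
  have hSM : S ≤ M := hSH0.trans hH0M
  have huniq : ∀ M' : Subgroup X, IsCoatom M' ∧ S ≤ M' → M' = M := fun M' ⟨h1, h2⟩ =>
    (h1.le_iff.1 ((hover M' h1.1 h2).trans hH0M)).resolve_left hMco.1 |>.symm
  have hle_M : ∀ Y : Subgroup X, S ≤ Y → Y ≠ ⊤ → Y ≤ M := fun Y hY hne => (hover Y hne hY).trans hH0M
  have hinfQ : ∀ N : Subgroup X, N.Normal → N ≤ M → S ⊓ N ≤ Q := fun N hN hNM =>
    haveI := hN
    TwoGroupTricks.PushingUp.inf_normal_le_pCore T hMco huniq N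
      fun e => hMco.1 (top_le_iff.1 (e ▸ sup_le hSM hNM))
  -- `Ω₁(Z(T))` is not normal
  set ZT := Cfsg.omegaOneCenter p S with hZT
  have hZTS : S ≤ Subgroup.centralizer (ZT : Set X) := fun t ht z hz =>
    ((ThompsonJ.omegaOne_le p _ hz).2 t ht).symm
  have hZTn : ¬ ZT.Normal := by
    intro hn
    by_cases hC : Subgroup.centralizer (ZT : Set X) = ⊤
    · refine hZn ⟨fun z hz g => ?_⟩
      rw [inducedFunctor_center] at hz ⊢
      have h1 := central_of_omega T hc (fun z hz g => ((hC.ge (Subgroup.mem_top g)) z hz).symm) z hz g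
      rwa [h1, mul_inv_cancel_right]
    · refine hH0 (top_le_iff.1 ?_)
      rw [← FFModules.MinimalParabolic.normalizer_inf_sup_eq_top T (Subgroup.centralizer (ZT : Set X))]
      rw [← hS, inf_eq_left.2 hZTS]
      exact sup_le (hover _ hNS Subgroup.le_normalizer) (hover _ hC hZTS)
  have hCZ : Subgroup.centralizer (ZT : Set X) ≤ M := hle_M _ hZTS fun e => hZTn ⟨fun z hz g => by
    have := (e.ge (Subgroup.mem_top g)) z hz
    rwa [← this, mul_inv_cancel_right]⟩
  -- `J̃(T)` is not normal
  have hJin : ∀ h : jTildeIn p S = ⊤, jTilde p S = S := fun h => by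
    rw [← map_jTildeIn, h, ← MonoidHom.range_eq_map, Subgroup.range_subtype]
  have hJt : ¬ (jTilde p S).Normal := by
    intro hn
    by_cases h : jTildeIn p S = ⊤
    · exact hNS (Subgroup.normalizer_eq_top_iff.2 (hJin h ▸ hn))
    · refine hKn (Subgroup.normalizer_eq_top_iff.1 (top_le_iff.1 ?_))
      rw [inducedFunctor_Kfun_jTilde hp2 T.2 h]
      exact (Subgroup.normalizer_eq_top_iff.2 hn).ge.trans
        (normalizer_le_normalizer_functor (hcf _ Kfun_mem) (T.2.to_le inf_le_left))
  rcases OddTransfer.dichotomy' T hp2 hc hMco hSM huniq hZTn hJt with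
    ⟨N, hNn, hNne, hNT, hTN⟩ | ⟨-, hnd⟩
  · haveI := hNn
    have hne : jTildeIn p S ≠ ⊤ := fun h => hNne <| by
      have h1 : S ≤ N := inf_eq_left.1 (hTN.trans (hJin h))
      rwa [sup_eq_left.2 h1] at hNT
    refine hdone (constrained_left T (fun _ => Iff.rfl) hSH0 hNT ?_)
    -- transfer inside `N`
    obtain ⟨P, hP⟩ := StronglyPEmbedded.exists_sylow_subgroupOf_eq T (A := N)
      (Subgroup.Normal.isSubnormal inferInstance)
    have hPmap : (P : Subgroup N).map N.subtype = jTilde p S := by
      rw [hP, Subgroup.subgroupOf_map_subtype]; exact hTN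
    rintro x ⟨hxS, hx⟩
    rw [← Subgroup.map_subtype_commutator] at hx
    obtain ⟨y, hy, rfl⟩ := hx
    have hyP : y ∈ (P : Subgroup N) := by rw [hP]; exact hxS
    have hmem := Subgroup.mem_map_of_mem N.subtype (hM N hNne P ⟨hyP, by rwa [← commutator_def]⟩)
    refine (?_ : (transferTarget (indSet (pairFunctors p)) ⊤ (P : Subgroup N)).map N.subtype ≤ D) hmem
    simp only [transferTarget, Subgroup.map_iSup]
    refine iSup₂_le fun V hV => ?_
    obtain ⟨W, hW, rfl⟩ := hV
    refine (Subgroup.map_inf_le _ _ _).trans ?_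
    rw [hPmap, Subgroup.map_commutator]
    have hLe : (⊤ ⊓ Subgroup.normalizer (Cfsg.inducedFunctor W (P : Subgroup N) : Set N)).map N.subtype ≤
        Subgroup.normalizer (Cfsg.inducedFunctor W (jTilde p S) : Set X) := by
      rw [top_inf_eq, ← hPmap, inducedFunctor_map (hsp W hW) N.subtype P.2 fun a _ ha => Subtype.ext ha]
      exact Subgroup.le_normalizer_map _
    refine (inf_le_inf (inf_le_left : jTilde p S ≤ S) (Subgroup.commutator_mono hLe hLe)).trans ?_
    rcases hW with rfl | rfl
    · set Z := Cfsg.inducedFunctor @centerFun (jTilde p S) with hZ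
      refine (hM _ fun e => ?_).promote hsp T ((Subgroup.le_normalizer.trans (normalizer_le_jTilde S)).trans
        (normalizer_le_normalizer_functor (hcf _ centerFun_mem) (T.2.to_le inf_le_left)))
      haveI : Z.Normal := Subgroup.normalizer_eq_top_iff.1 e
      have hZZ : ZT ≤ Z := fun z hz => by
        rw [hZ, inducedFunctor_center]
        have hz' := ThompsonJ.omegaOne_le p _ hz
        refine ⟨⟨hz'.1, fun w hw => ?_⟩, fun w hw => hz'.2 w hw.1⟩
        exact (hz'.2 w (ThompsonJ.thompsonSubgroupOf_le p S ((ThompsonJ.omegaOne_le p _ hw).1)))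
      have h1 := hinfQ (Subgroup.centralizer (Z : Set X)) inferInstance
        ((Subgroup.centralizer_le hZZ).trans hCZ)
      have h2 : jTilde p S ≤ Q := by
        refine le_trans (le_inf (inf_le_left : jTilde p S ≤ S) ?_) h1
        intro w hw z hz
        rw [hZ, inducedFunctor_center] at hz
        exact (hz.2 w hw).symm
      refine hJt ?_
      rw [show jTilde p S = Q ⊓ N from le_antisymm (le_inf h2 (hTN.ge.trans inf_le_right))
        ((inf_le_inf_right N hQS).trans hTN.le)]
      infer_instance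
    · rw [← inducedFunctor_Kfun_jTilde hp2 T.2 hne]
      exact piece_le Kfun_mem S
  · set V := Cfsg.omegaOneCenter p Q with hV
    have hVel := FFModules.MinimalParabolic.isElementaryAbelian_omegaOneCenter (p := p) Q
    haveI hVn : V.Normal := FFModules.MinimalParabolic.omegaOneCenter_normal Q
    have hVQ : V ≤ Q ⊓ Subgroup.centralizer (Q : Set X) := ThompsonJ.omegaOne_le p _
    by_cases hbad : ∃ u ∈ S, u ∉ Q ∧ ∃ R : Subgroup X, R ≤ Q ∧ R.Normal ∧
        (∀ s ∈ Q, ⁅⁅s, u⁆, u⁆ ∈ R) ∧ (∀ s ∈ R, ⁅⁅s, u⁆, u⁆ ∈ V)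
    · obtain ⟨u, huS, huQ, R, -, hRn, h1, h2⟩ := hbad
      rw [← commutator_def]
      refine engel_transfer T (transferTarget_le.trans inf_le_left) hDS
        (fun M' hM' hSM' => tRel_of_transferOK hsp T (hM M' hM') hSM') huS huQ
        (engelOnCore_of_reduction hp2 hRn hVn h1 h2 fun v hv => ?_)
      refine commutatorElement_eq_one_iff_commute.2 ?_
      exact ((hnd.comm_le (Subgroup.commutator_mem_commutator hv huS)).2 u huS).symm
    · push Not at hbad
      obtain ⟨A, hA, hAQ⟩ := hnd.offender
      have hMem : Member p X S Q V M :=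
        { pgroup := T.2
          normQ := hQn
          normV := hVn
          Q_le := hQS
          V_le := hVQ.trans inf_le_left
          comm := fun a ha v hv => (hVQ hv).2 a ha
          powV := fun v hv => hVel.2 v hv
          conj := fun H hH => by
            obtain ⟨T', hT'⟩ := hH.exists_le_sylow
            obtain ⟨g, hg⟩ := MulAction.exists_smul_eq X T T'
            refine ⟨g, ?_⟩
            rw [← hg, Sylow.coe_subgroup_smul] at hT'
            exact hT'
          ne_Q := Set.not_subset.1 fun h => hAQ (hA.le.trans h)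
          cent := fun g hg h => hnd.cent ⟨hg, fun v hv => (h v hv).symm⟩
          center_le := fun z hz hzc hzp => hnd.center_le (ThompsonJ.mem_omegaOne ⟨hz, hzc⟩ hzp)
          le_M := hSM
          M_ne := hMco.1
          uniq := hle_M
          ti := hnd.ti
          centV := fun g h => hnd.centV fun v hv => (h v hv).symm
          card_V := hnd.card_V
          fix_eq := hnd.fix_eq
          comm_le := hnd.comm_le
          line := hnd.line
          offender := ⟨A, hA, hAQ⟩
          bad := fun u hu huQ R hR hn h1 h2 => by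
            obtain ⟨s, hs, hs'⟩ := hbad u hu huQ R hR hn h1
            exact hs' (h2 s hs) }
      have hbn := baseCore_map_normal (p := p) S.subtype
        ⟨inferInstance, S.subtype_injective, Q, V, M, by rwa [Subgroup.range_subtype]⟩
      refine (hKn ?_).elim
      have htop : jTildeIn p S = ⊤ := Subgroup.map_injective S.subtype_injective (by
        rw [map_jTildeIn, hnd.jTilde_eq, ← MonoidHom.range_eq_map, Subgroup.range_subtype])
      rwa [← Kfun_of_top htop] at hbn

/-- Transfer is controlled by the centre and `Kfun`, `p` odd. -/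
theorem transferOK_pair (hp2 : p ≠ 2) : TransferOK p (pairFunctors.{u} p) X :=
  transferOK_of_constrained' (pairFunctors_spec hp2) fun _ _ _ _ hc hM T => constrained_case hp2 hc hM T

end CfsgLib.PushUp.CommonCore
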