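import Cfsg.Agent.Lib.PushUp.CommonCore.Instance
import Cfsg.Agent.Lib.PushUp.OddTransfer.Local
import Cfsg.Agent.Lib.ThompsonJ.StableClosure
import Cfsg.Agent.Lib.ConjFunctor.Main

/-!
The functors for transfer at odd primes: the common characteristic subgroup of all pushing-up members,
and its extension along `J̃`.
-/

set_option autoImplicit false
set_option linter.style.haveILetI false
set_option linter.unusedSectionVars false

namespace CfsgLib.PushUp.CommonCore

open CfsgLib.PushUp.OddTransfer (jTilde jTildeIn jTildeIn_characteristic map_jTildeIn)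

universe u

variable {p : ℕ}

/-- An embedding as the Sylow subgroup of a member. -/
def BadEmb (p : ℕ) {T X : Type u} [Group T] [Group X] (τ : T →* X) : Prop :=
  Finite X ∧ Function.Injective τ ∧ ∃ Q V M : Subgroup X, Member p X τ.range Q V M

/-- The largest characteristic subgroup normal in all members. -/
def baseCore (p : ℕ) (T : Type u) [Group T] : Subgroup T :=
  sSup {K | K.Characteristic ∧ ∀ (X : Type u) [Group X] (τ : T →* X), BadEmb p τ → (K.map τ).Normal}

theorem baseCore_map_normal {T X : Type u} [Group T] [Group X] (τ : T →* X) (h : BadEmb p τ) :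
    ((baseCore p T).map τ).Normal := by
  refine ⟨fun x hx g => ?_⟩
  have hle : (baseCore p T).map τ ≤ ((baseCore p T).map τ).comap (MulAut.conj g).toMonoidHom := by
    rw [baseCore, Subgroup.map_le_iff_le_comap, sSup_le_iff]
    intro K hK a ha
    obtain ⟨b, hb, e⟩ := (hK.2 X τ h).conj_mem (τ a) ⟨a, ha, rfl⟩ g
    exact ⟨b, le_sSup hK hb, e⟩
  exact hle hx

theorem baseCore_map_equiv {T R : Type u} [Group T] [Group R] (φ : T ≃* R) :
    (baseCore p T).map φ.toMonoidHom = baseCore p R := by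
  have key : ∀ {T R : Type u} [Group T] [Group R] (φ : T ≃* R),
      (baseCore p T).map φ.toMonoidHom ≤ baseCore p R := by
    intro T R _ _ φ
    rw [baseCore, baseCore, Subgroup.map_le_iff_le_comap, sSup_le_iff]
    rintro K ⟨hK, hKn⟩
    rw [← Subgroup.map_le_iff_le_comap]
    refine le_sSup ⟨Subgroup.characteristic_iff_map_eq.2 fun α => ?_, fun X _ τ hτ => ?_⟩
    · have h := Subgroup.characteristic_iff_map_eq.1 hK ((φ.trans α).trans φ.symm)
      calc (K.map φ.toMonoidHom).map α.toMonoidHom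
          = (K.map ((φ.trans α).trans φ.symm).toMonoidHom).map φ.toMonoidHom := by
            rw [Subgroup.map_map, Subgroup.map_map]
            congr 1
            ext x
            simp
        _ = K.map φ.toMonoidHom := by rw [h]
    · obtain ⟨hX, hτi, Q, V, M, hB⟩ := hτ
      rw [Subgroup.map_map]
      refine hKn X _ ⟨hX, hτi.comp φ.injective, Q, V, M, ?_⟩
      rwa [MonoidHom.range_comp, MonoidHom.range_eq_top.2 φ.surjective, ← MonoidHom.range_eq_map]
  refine le_antisymm (key φ) fun r hr => ?_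
  exact ⟨φ.symm r, key φ.symm ⟨r, hr, rfl⟩, φ.apply_symm_apply r⟩

theorem baseCore_ne_bot [Fact p.Prime] (hp2 : p ≠ 2) (T : Type u) [Group T] [Finite T] [Nontrivial T] :
    baseCore p T ≠ ⊥ := by
  intro hbot
  have h : ∀ K : {K : Subgroup T // K ≠ ⊥ ∧ K.Characteristic}, ∃ (X : Type u) (_ : Group X) (τ : T →* X),
      BadEmb p τ ∧ ¬ ((K : Subgroup T).map τ).Normal := by
    intro K
    by_contra hno
    push Not at hno
    refine K.2.1 (le_bot_iff.1 (le_trans ?_ hbot.le))
    exact le_sSup ⟨K.2.2, fun X i τ h => hno X i τ h⟩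
  choose X iX τ hbad hnn using h
  haveI : ∀ K, Finite (X K) := fun K => (hbad K).1
  choose Q V M hB using fun K => (hbad K).2.2
  haveI : Nonempty {K : Subgroup T // K ≠ ⊥ ∧ K.Characteristic} := ⟨⟨⊤, top_ne_bot, inferInstance⟩⟩
  obtain ⟨K, hK, hKc, hKn⟩ := exists_common hp2 τ (fun K => (hbad K).2.1) Q V M hB
  exact hnn ⟨K, hK, hKc⟩ (hKn _)

theorem jTildeIn_map_equiv {T R : Type u} [Group T] [Group R] (φ : T ≃* R) :
    (jTildeIn p T).map φ.toMonoidHom = jTildeIn p R := by
  have e : (φ.toMonoidHom : T → R) '' (Cfsg.omegaCenterThompson p T : Set T) =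
      (Cfsg.omegaCenterThompson p R : Set R) := by
    rw [← ThompsonJ.map_omegaCenterThompson_equiv φ, Subgroup.coe_map]
  ext y
  rw [Subgroup.mem_map_equiv, jTildeIn, jTildeIn, Subgroup.mem_centralizer_iff,
    Subgroup.mem_centralizer_iff, ← e, Set.forall_mem_image]
  refine forall₂_congr fun z _ => ⟨fun h => ?_, fun h => φ.injective ?_⟩
  · simpa using congrArg φ h
  · simpa using h

/-- The iteration along `J̃`. -/
noncomputable def Kf (p : ℕ) : ℕ → ∀ (T : Type u) [Group T], Subgroup T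
  | 0, T, _ => baseCore p T
  | n + 1, T, _ =>
    @ite (Subgroup T) (jTildeIn p T = ⊤) (Classical.propDecidable _) (baseCore p T)
      ((Kf p n ↥(jTildeIn p T)).map (jTildeIn p T).subtype)

/-- The functor. -/
noncomputable def Kfun (p : ℕ) (T : Type u) [Group T] : Subgroup T := Kf p (Nat.card T) T

theorem Kf_succ_top {n : ℕ} {T : Type u} [Group T] (h : jTildeIn p T = ⊤) :
    Kf p (n + 1) T = baseCore p T := by
  rw [Kf, if_pos h]

theorem Kf_succ_of_ne {n : ℕ} {T : Type u} [Group T] (h : jTildeIn p T ≠ ⊤) :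
    Kf p (n + 1) T = (Kf p n ↥(jTildeIn p T)).map (jTildeIn p T).subtype := by
  rw [Kf, if_neg h]

theorem Kf_map_equiv : ∀ (n : ℕ) {T R : Type u} [Group T] [Group R] (φ : T ≃* R),
    (Kf p n T).map φ.toMonoidHom = Kf p n R
  | 0, _, _, _, _, φ => baseCore_map_equiv φ
  | n + 1, T, R, _, _, φ => by
    have e := jTildeIn_map_equiv (p := p) φ
    by_cases h : jTildeIn p T = ⊤
    · have h' : jTildeIn p R = ⊤ := by rw [← e, h, Subgroup.map_top_of_surjective _ φ.surjective]
      rw [Kf_succ_top h, Kf_succ_top h', baseCore_map_equiv]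
    · have h' : jTildeIn p R ≠ ⊤ := fun h2 => h <| by
        rw [h2] at e
        refine Subgroup.map_injective φ.injective (e.trans ?_)
        exact (Subgroup.map_top_of_surjective _ φ.surjective).symm
      rw [Kf_succ_of_ne h, Kf_succ_of_ne h']
      rw [← Kf_map_equiv n ((φ.subgroupMap (jTildeIn p T)).trans (MulEquiv.subgroupCongr e)),
        Subgroup.map_map, Subgroup.map_map]
      rfl

theorem Kfun_map_equiv {T R : Type u} [Group T] [Group R] (φ : T ≃* R) :
    (Kfun p T).map φ.toMonoidHom = Kfun p R := by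
  rw [Kfun, Kfun, ← Nat.card_congr φ.toEquiv]
  exact Kf_map_equiv _ φ

variable [Fact p.Prime]

theorem jTildeIn_ne_bot {T : Type u} [Group T] [Finite T] [Nontrivial T] (hT : IsPGroup p T) :
    jTildeIn p T ≠ ⊥ := by
  haveI := hT.center_nontrivial
  intro h
  refine (Subgroup.nontrivial_iff_ne_bot _).1 this (le_bot_iff.1 (h ▸ fun z hz => ?_))
  exact Subgroup.mem_centralizer_iff.2 fun w _ => Subgroup.mem_center_iff.1 hz w

theorem Kf_ne_bot (hp2 : p ≠ 2) : ∀ (n : ℕ) {T : Type u} [Group T] [Finite T] [Nontrivial T],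
    IsPGroup p T → Kf p n T ≠ ⊥
  | 0, T, _, _, _, _ => baseCore_ne_bot hp2 T
  | n + 1, T, _, _, _, hT => by
    by_cases h : jTildeIn p T = ⊤
    · rw [Kf_succ_top h]; exact baseCore_ne_bot hp2 T
    · rw [Kf_succ_of_ne h]
      haveI := (Subgroup.nontrivial_iff_ne_bot _).2 (jTildeIn_ne_bot hT)
      exact fun e => Kf_ne_bot hp2 n (hT.to_subgroup _)
        ((Subgroup.map_eq_bot_iff_of_injective _ (jTildeIn p T).subtype_injective).1 e)

omit [Fact p.Prime] in
theorem Kf_eq : ∀ (n : ℕ) {T : Type u} [Group T] [Finite T] (m : ℕ),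
    Nat.card T ≤ n → Nat.card T ≤ m → Kf p n T = Kf p m T
  | 0, T, _, _, _, h, _ => absurd h (by have := Nat.card_pos (α := T); omega)
  | n + 1, T, _, _, 0, _, h => absurd h (by have := Nat.card_pos (α := T); omega)
  | n + 1, T, _, _, m + 1, h₁, h₂ => by
    by_cases h : jTildeIn p T = ⊤
    · rw [Kf_succ_top h, Kf_succ_top h]
    · have := ConjFunctor.card_subgroup_lt h
      rw [Kf_succ_of_ne h, Kf_succ_of_ne h, Kf_eq n m (by omega) (by omega)]

omit [Fact p.Prime] in
theorem Kfun_of_top {T : Type u} [Group T] [Finite T] (h : jTildeIn p T = ⊤) :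
    Kfun p T = baseCore p T := by
  obtain ⟨n, hn⟩ : ∃ n, Nat.card T = n + 1 := ⟨Nat.card T - 1, by have := Nat.card_pos (α := T); omega⟩
  rw [Kfun, hn, Kf_succ_top h]

omit [Fact p.Prime] in
theorem Kfun_of_ne {T : Type u} [Group T] [Finite T] (h : jTildeIn p T ≠ ⊤) :
    Kfun p T = (Kfun p ↥(jTildeIn p T)).map (jTildeIn p T).subtype := by
  obtain ⟨n, hn⟩ : ∃ n, Nat.card T = n + 1 := ⟨Nat.card T - 1, by have := Nat.card_pos (α := T); omega⟩
  have := ConjFunctor.card_subgroup_lt h
  rw [Kfun, hn, Kf_succ_of_ne h, Kfun, Kf_eq n (Nat.card ↥(jTildeIn p T)) (by omega) le_rfl]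

theorem isCharPFunctor_Kfun (hp2 : p ≠ 2) :
    Cfsg.IsCharPFunctor.{u} p (fun T _ => Kfun p T) :=
  ⟨fun _ _ _ hT h => haveI := h; Kf_ne_bot hp2 _ hT, fun _ _ _ _ _ _ φ => Kfun_map_equiv φ⟩

theorem Kfun_characteristic (T : Type u) [Group T] : (Kfun p T).Characteristic :=
  Subgroup.characteristic_iff_map_eq.2 fun φ => Kfun_map_equiv φ

theorem isCharPFunctor_center (p : ℕ) [Fact p.Prime] :
    Cfsg.IsCharPFunctor.{u} p (fun T _ => Subgroup.center T) :=
  ⟨fun T _ _ hT h => by
    haveI := h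
    haveI := hT.center_nontrivial
    exact (Subgroup.nontrivial_iff_ne_bot _).1 this,
    fun _ _ _ _ _ _ φ => ThompsonJ.map_center_equiv φ⟩

end CfsgLib.PushUp.CommonCore
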