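import Cfsg.Agent.Lib.PushUp.CommonCore.Main

/-!
Pushing up with several types of vertices: finitely many groups over one Sylow subgroup acting freely on
one set, so that their actions agree on the Sylow subgroup.
-/

set_option autoImplicit false
set_option linter.style.haveILetI false
set_option linter.unusedSectionVars false

namespace CfsgLib.PushUp.CommonCore

open scoped commutatorElement
open CfsgLib.PushUp.RankOne (cj mem_cj conj_mem_cj cj_one cj_mul cj_inv_cj cj_cj_inv cj_mono card_cj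
  cj_eq_self cj_eq_self_of_mem)

/-- What is needed from one member of the family. -/
structure Member (p : ℕ) (G : Type*) [Group G] (S Q V M : Subgroup G) : Prop where
  pgroup : IsPGroup p S
  normQ : Q.Normal
  normV : V.Normal
  Q_le : Q ≤ S
  V_le : V ≤ Q
  comm : ∀ a ∈ Q, ∀ v ∈ V, a * v = v * a
  powV : ∀ v ∈ V, v ^ p = 1
  conj : ∀ H : Subgroup G, IsPGroup p H → ∃ g : G, H ≤ cj g S
  ne_Q : ∃ g ∈ S, g ∉ Q
  cent : ∀ g ∈ S, (∀ v ∈ V, g * v = v * g) → g ∈ Q
  center_le : ∀ z ∈ S, (∀ g ∈ S, g * z = z * g) → z ^ p = 1 → z ∈ V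
  le_M : S ≤ M
  M_ne : M ≠ ⊤
  uniq : ∀ H : Subgroup G, S ≤ H → H ≠ ⊤ → H ≤ M
  ti : ∀ g : G, ∀ z ∈ S, z ∉ Q → g * z * g⁻¹ ∈ S → g ∈ M
  centV : ∀ g : G, (∀ v ∈ V, g * v = v * g) → g ∈ M
  card_V : Nat.card V * Nat.card Q = Nat.card S * Nat.card ↥(V ⊓ Subgroup.centralizer (S : Set G))
  fix_eq : ∀ g ∈ S, g ∉ Q → ∀ v ∈ V, g * v = v * g → v ∈ Subgroup.centralizer (S : Set G)
  comm_le : ⁅V, S⁆ ≤ V ⊓ Subgroup.centralizer (S : Set G)
  line : ⁅V, S⁆ ⊓ Subgroup.centralizer ((⊤ : Subgroup G) : Set G) = ⊥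
  offender : ∃ A, CfsgLib.ThompsonJ.IsMaxEA p S A ∧ ¬ A ≤ Q
  bad : ∀ u ∈ S, u ∉ Q → ∀ R : Subgroup G, R ≤ Q → R.Normal →
    (∀ s ∈ Q, ⁅⁅s, u⁆, u⁆ ∈ R) → (∀ s ∈ R, ⁅⁅s, u⁆, u⁆ ∈ V) → False

theorem map_inf_centralizer_map {G H : Type*} [Group G] [Group H] {f : G →* H} (hf : Function.Injective f)
    (A B : Subgroup G) :
    A.map f ⊓ Subgroup.centralizer (B.map f : Set H) = (A ⊓ Subgroup.centralizer (B : Set G)).map f := by
  ext z
  constructor
  · rintro ⟨⟨a, ha, rfl⟩, hc⟩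
    exact ⟨a, ⟨ha, fun b hb => hf (by rw [map_mul, map_mul]; exact hc _ ⟨b, hb, rfl⟩)⟩, rfl⟩
  · rintro ⟨a, ⟨ha, hc⟩, rfl⟩
    refine ⟨⟨a, ha, rfl⟩, ?_⟩
    rintro _ ⟨b, hb, rfl⟩
    rw [← map_mul, ← map_mul, hc b hb]

/-- A free action of `G` on `T × N` restricting to left multiplication on `T`. -/
theorem exists_aligned {T G : Type*} [Group T] [Group G] [Finite T] [Finite G] (τ : T →* G)
    (hτ : Function.Injective τ) (n : ℕ) (hn : τ.range.index ∣ n) (hn0 : n ≠ 0) :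
    ∃ φ : G →* Equiv.Perm (T × Fin n), Function.Injective φ ∧
      ∀ t : T, ∀ z : T × Fin n, φ (τ t) z = (t * z.1, z.2) := by
  classical
  obtain ⟨k, hk⟩ := hn
  let R := Quotient (QuotientGroup.rightRel τ.range)
  have hcardR : Nat.card R = τ.range.index :=
    Nat.card_congr (QuotientGroup.quotientRightRelEquivQuotientLeftRel τ.range)
  have hrn : Nat.card (R × Fin k) = Nat.card (Fin n) := by
    rw [Nat.card_prod, hcardR, Nat.card_fin, Nat.card_fin, hk]
  obtain ⟨e⟩ : Nonempty (R × Fin k ≃ Fin n) := ⟨Finite.equivFinOfCardEq (hrn.trans (Nat.card_fin n))⟩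
  have hr : ∀ g : G, g * (Quotient.out (Quotient.mk (QuotientGroup.rightRel τ.range) g) : G)⁻¹ ∈ τ.range :=
    fun g => QuotientGroup.rightRel_apply.1 (Quotient.mk_out (s := QuotientGroup.rightRel τ.range) g)
  choose tt htt using hr
  have htmk : ∀ (t : T) (g : G), (Quotient.mk (QuotientGroup.rightRel τ.range) (τ t * g) : R) =
      Quotient.mk (QuotientGroup.rightRel τ.range) g := fun t g => Quotient.sound
    (QuotientGroup.rightRel_apply.2 (by simpa using τ.range.inv_mem ⟨t, rfl⟩))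
  let F : G × Fin k → T × Fin n := fun a =>
    (tt a.1, e (Quotient.mk (QuotientGroup.rightRel τ.range) a.1, a.2))
  have hFi : Function.Injective F := by
    rintro ⟨g, i⟩ ⟨h, j⟩ hgh
    have h1 := congrArg Prod.fst hgh
    have h2 := e.injective (congrArg Prod.snd hgh)
    simp only [F] at h1
    simp only [Prod.mk.injEq] at h2
    have e1 := htt g
    rw [h1, h2.1, htt h] at e1
    exact Prod.ext (mul_right_cancel e1).symm h2.2
  have hcard : Nat.card (G × Fin k) = Nat.card (T × Fin n) := by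
    rw [Nat.card_prod, Nat.card_prod, Nat.card_fin, Nat.card_fin, hk, ← mul_assoc]
    congr 1
    rw [Nat.card_congr (MonoidHom.ofInjective hτ).toEquiv, Subgroup.card_mul_index]
  let E : G × Fin k ≃ T × Fin n :=
    Equiv.ofBijective F ((Nat.bijective_iff_injective_and_card F).2 ⟨hFi, hcard⟩)
  let φ : G →* Equiv.Perm (T × Fin n) :=
    { toFun := fun g => E.symm.trans (((Equiv.mulLeft g).prodCongr (Equiv.refl (Fin k))).trans E)
      map_one' := Equiv.ext fun z => by simp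
      map_mul' := fun g h => Equiv.ext fun z => by simp [Prod.map] }
  have hk0 : 0 < k := Nat.pos_of_ne_zero fun h => hn0 (by rw [hk, h, mul_zero])
  refine ⟨φ, fun g h hgh => ?_, fun t z => ?_⟩
  · have h1 := Equiv.ext_iff.1 hgh (E (1, ⟨0, hk0⟩))
    simpa [φ, E.injective.eq_iff] using h1
  · obtain ⟨⟨g, i⟩, rfl⟩ := E.surjective z
    have e1 : φ (τ t) (E (g, i)) = E (τ t * g, i) := by simp [φ]
    rw [e1]
    show F (τ t * g, i) = (t * (F (g, i)).1, (F (g, i)).2)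
    refine Prod.ext (hτ ?_) (by simp [F, htmk])
    show τ (tt (τ t * g)) = τ (t * tt g)
    rw [map_mul, htt, htt, htmk]
    group

section

variable {ι : Type*} {T : Type*} [Group T] [Finite T] {G : ι → Type*} [∀ i, Group (G i)]
  [∀ i, Finite (G i)] {Ω : Type*} [Finite Ω]

theorem conj_map (φ : ∀ i, G i →* Equiv.Perm Ω) (i : ι) (σ : Equiv.Perm Ω) (H : Subgroup (G i)) :
    cj σ (H.map (φ i)) = H.map ((MulAut.conj σ).toMonoidHom.comp (φ i)) :=
  Subgroup.map_map _ _ _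

/-- The vertices. -/
abbrev Vert (φ : ∀ i, G i →* Equiv.Perm Ω) := Σ i, Equiv.Perm Ω ⧸ (φ i).range

variable (φ : ∀ i, G i →* Equiv.Perm Ω)

theorem cj_out {i : ι} {H : Subgroup (G i)} (hH : H.Normal) (σ : Equiv.Perm Ω) :
    cj (QuotientGroup.mk σ : Equiv.Perm Ω ⧸ (φ i).range).out (H.map (φ i)) = cj σ (H.map (φ i)) := by
  obtain ⟨⟨_, a, rfl⟩, e⟩ := QuotientGroup.mk_out_eq_mul (φ i).range σ
  rw [e, cj_mul, cj_eq_self (g := φ i a) fun z hz => ?_]
  obtain ⟨h, hh, rfl⟩ := hz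
  exact ⟨a * h * a⁻¹, hH.conj_mem h hh a, by simp⟩

theorem stabilizer_mk (i : ι) (σ : Equiv.Perm Ω) :
    MulAction.stabilizer (Equiv.Perm Ω) (QuotientGroup.mk σ : Equiv.Perm Ω ⧸ (φ i).range) =
      (⊤ : Subgroup (G i)).map ((MulAut.conj σ).toMonoidHom.comp (φ i)) := by
  have e : (QuotientGroup.mk σ : Equiv.Perm Ω ⧸ (φ i).range) = σ • QuotientGroup.mk 1 := by
    rw [MulAction.Quotient.smul_mk, smul_eq_mul, mul_one]
  refine ((congrArg (MulAction.stabilizer (Equiv.Perm Ω)) e).trans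
    (MulAction.stabilizer_smul_eq_stabilizer_map_conj σ _)).trans ?_
  rw [MulAction.stabilizer_quotient, MonoidHom.range_eq_map]
  exact Subgroup.map_map _ _ _

theorem stabilizer_sigma (x : Vert φ) :
    MulAction.stabilizer (Equiv.Perm Ω) x = MulAction.stabilizer (Equiv.Perm Ω) x.2 := by
  obtain ⟨i, c⟩ := x
  ext g
  simp [MulAction.mem_stabilizer_iff, Sigma.smul_mk]

/-- A vertex from a representative. -/
abbrev vx (i : ι) (σ : Equiv.Perm Ω) : Vert φ := ⟨i, QuotientGroup.mk σ⟩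

theorem vx_smul (g : Equiv.Perm Ω) (i : ι) (σ : Equiv.Perm Ω) : g • vx φ i σ = vx φ i (g * σ) := rfl

theorem exists_vx (x : Vert φ) : ∃ i σ, x = vx φ i σ := by
  obtain ⟨i, c⟩ := x
  obtain ⟨σ, rfl⟩ := QuotientGroup.mk_surjective c
  exact ⟨i, σ, rfl⟩

/-- A family of subgroups at a vertex. -/
noncomputable def atV (H : ∀ i, Subgroup (G i)) (x : Vert φ) : Subgroup (Equiv.Perm Ω) :=
  cj x.2.out ((H x.1).map (φ x.1))

theorem atV_vx {H : ∀ i, Subgroup (G i)} {i : ι} (hH : (H i).Normal) (σ : Equiv.Perm Ω) :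
    atV φ H (vx φ i σ) = cj σ ((H i).map (φ i)) := cj_out φ hH σ

theorem stabilizer_vx (i : ι) (σ : Equiv.Perm Ω) :
    MulAction.stabilizer (Equiv.Perm Ω) (vx φ i σ) =
      (⊤ : Subgroup (G i)).map ((MulAut.conj σ).toMonoidHom.comp (φ i)) :=
  (stabilizer_sigma φ _).trans (stabilizer_mk φ i σ)

/-- The configuration of a family. -/
noncomputable def sys {p : ℕ} (τ : ∀ i, T →* G i) (Q V M : ∀ i, Subgroup (G i))
    (hB : ∀ i, Member p (G i) (τ i).range (Q i) (V i) (M i)) (lam : T →* Equiv.Perm Ω)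
    (hφi : ∀ i, Function.Injective (φ i)) (hφ : ∀ i, (φ i).comp (τ i) = lam) (i₀ : ι)
    (haut : ∀ α : T ≃* T, ∃ σ : Equiv.Perm Ω, ∀ t, σ * lam t * σ⁻¹ = lam (α t))
    (hcore : ∀ K : Subgroup T, K.Characteristic → (∀ i, (K.map (τ i)).Normal) → K = ⊥) :
    Sys p (Equiv.Perm Ω) (Vert φ) :=
  have hS : ∀ i, lam.range = (τ i).range.map (φ i) := fun i => by
    rw [← hφ i, MonoidHom.range_comp]
  have hinj : ∀ i (σ : Equiv.Perm Ω), Function.Injective ((MulAut.conj σ).toMonoidHom.comp (φ i)) :=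
    fun i σ => (MulAut.conj σ).injective.comp (hφi i)
  { Gv := fun x => MulAction.stabilizer (Equiv.Perm Ω) x
    Q := atV φ Q
    V := atV φ V
    I := fun x P => ∃ i σ, x = vx φ i σ ∧ P = cj σ lam.range
    base := ⟨i₀, QuotientGroup.mk 1⟩
    smul_I := fun g x P => by
      rintro ⟨i, σ, rfl, rfl⟩
      exact ⟨i, g * σ, rfl, (cj_mul g σ _).symm⟩
    smul_Gv := fun g x => MulAction.stabilizer_smul_eq_stabilizer_map_conj g x
    smul_Q := fun g x => by
      obtain ⟨i, σ, rfl⟩ := exists_vx φ x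
      rw [vx_smul]
      rw [atV_vx φ (hB i).normQ, atV_vx φ (hB i).normQ, cj_mul]
    smul_V := fun g x => by
      obtain ⟨i, σ, rfl⟩ := exists_vx φ x
      rw [vx_smul]
      rw [atV_vx φ (hB i).normV, atV_vx φ (hB i).normV, cj_mul]
    fixes := fun hg => hg
    exists_I := fun x => by
      obtain ⟨i, σ, rfl⟩ := exists_vx φ x
      exact ⟨_, i, σ, rfl, rfl⟩
    conj_I := by
      rintro x P P' ⟨i, σ, rfl, rfl⟩ ⟨j, ρ, hρ, rfl⟩
      obtain ⟨rfl, hρ⟩ := Sigma.mk.inj_iff.1 hρ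
      obtain ⟨a, ha⟩ : σ⁻¹ * ρ ∈ (φ i).range := QuotientGroup.eq.1 (eq_of_heq hρ)
      refine ⟨σ * φ i a * σ⁻¹, ?_, ?_⟩
      · rw [stabilizer_vx]; exact ⟨a, trivial, by simp⟩
      · rw [← cj_mul, ha]; simp [mul_assoc]
    le_G := by
      rintro x P ⟨i, σ, rfl, rfl⟩
      rw [stabilizer_vx, hS i, conj_map]
      exact Subgroup.map_mono le_top
    Q_le := by
      rintro x P ⟨i, σ, rfl, rfl⟩
      rw [atV_vx φ (hB i).normQ, hS i]
      exact cj_mono σ (Subgroup.map_mono (hB i).Q_le)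
    V_le := fun x => cj_mono _ (Subgroup.map_mono (hB x.1).V_le)
    normQ := fun {x} g hg a ha => by
      obtain ⟨i, σ, rfl⟩ := exists_vx φ x
      rw [stabilizer_vx] at hg
      rw [atV_vx φ (hB i).normQ, conj_map] at ha ⊢
      obtain ⟨g, -, rfl⟩ := hg
      obtain ⟨a, ha, rfl⟩ := ha
      exact ⟨g * a * g⁻¹, (hB i).normQ.conj_mem a ha g, by rw [map_mul, map_mul, map_inv]⟩
    normV := fun {x} g hg a ha => by
      obtain ⟨i, σ, rfl⟩ := exists_vx φ x
      rw [stabilizer_vx] at hg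
      rw [atV_vx φ (hB i).normV, conj_map] at ha ⊢
      obtain ⟨g, -, rfl⟩ := hg
      obtain ⟨a, ha, rfl⟩ := ha
      exact ⟨g * a * g⁻¹, (hB i).normV.conj_mem a ha g, by rw [map_mul, map_mul, map_inv]⟩
    comm := fun {x} a ha v hv => by
      obtain ⟨i, σ, rfl⟩ := exists_vx φ x
      rw [atV_vx φ (hB i).normQ, conj_map] at ha
      rw [atV_vx φ (hB i).normV, conj_map] at hv
      obtain ⟨a, ha, rfl⟩ := ha
      obtain ⟨v, hv, rfl⟩ := hv
      rw [← map_mul, ← map_mul, (hB i).comm a ha v hv]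
    powV := fun {x} v hv => by
      obtain ⟨i, σ, rfl⟩ := exists_vx φ x
      rw [atV_vx φ (hB i).normV, conj_map] at hv
      obtain ⟨v, hv, rfl⟩ := hv
      rw [← map_pow, (hB i).powV v hv, map_one]
    pgroup := by
      rintro x P ⟨i, σ, rfl, rfl⟩
      rw [hS i, conj_map]
      exact (hB i).pgroup.map _
    exists_ge := fun {x} H hH hHp => by
      obtain ⟨i, σ, rfl⟩ := exists_vx φ x
      rw [stabilizer_vx] at hH
      set ψ := (MulAut.conj σ).toMonoidHom.comp (φ i)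
      obtain ⟨g, hg⟩ := (hB i).conj (H.comap ψ) (hHp.comap_of_injective ψ (hinj i σ))
      refine ⟨cj (σ * φ i g) lam.range, ⟨i, σ * φ i g, by rw [vx, vx, (QuotientGroup.eq.2 ⟨g, by simp⟩ : (QuotientGroup.mk σ : Equiv.Perm Ω ⧸ (φ i).range) = QuotientGroup.mk (σ * φ i g))], rfl⟩, fun z hz => ?_⟩
      obtain ⟨a, -, rfl⟩ := hH hz
      obtain ⟨s, ⟨t, rfl⟩, e⟩ := hg (Subgroup.mem_comap.2 hz : a ∈ H.comap ψ)
      have e' : a = g * τ i t * g⁻¹ := e.symm
      refine ⟨lam t, ⟨t, rfl⟩, ?_⟩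
      show σ * φ i g * lam t * (σ * φ i g)⁻¹ = σ * φ i a * σ⁻¹
      rw [e', map_mul, map_mul, map_inv, ← hφ i]
      simp [mul_assoc]
    ne_Q := by
      rintro x P ⟨i, σ, rfl, rfl⟩
      obtain ⟨g, hg, hgQ⟩ := (hB i).ne_Q
      rw [atV_vx φ (hB i).normQ, hS i, conj_map, conj_map]
      exact ⟨_, ⟨g, hg, rfl⟩, fun ⟨a, ha, e⟩ => hgQ (hinj i σ e ▸ ha)⟩
    cent := by
      rintro x P ⟨i, σ, rfl, rfl⟩ g hg h
      rw [atV_vx φ (hB i).normQ, conj_map]
      rw [hS i, conj_map] at hg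
      rw [atV_vx φ (hB i).normV, conj_map] at h
      obtain ⟨g, hgS, rfl⟩ := hg
      refine ⟨g, (hB i).cent g hgS fun v hv => hinj i σ ?_, rfl⟩
      rw [map_mul, map_mul]
      exact h _ ⟨v, hv, rfl⟩
    center_le := by
      rintro x P ⟨i, σ, rfl, rfl⟩ z hz hc hzp
      rw [atV_vx φ (hB i).normV, conj_map]
      rw [hS i, conj_map] at hz hc
      obtain ⟨z, hzS, rfl⟩ := hz
      refine ⟨z, (hB i).center_le z hzS (fun g hg => hinj i σ ?_)
        (hinj i σ (by rw [map_pow, hzp, map_one])), rfl⟩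
      rw [map_mul, map_mul]
      exact hc _ ⟨g, hg, rfl⟩
    max := by
      rintro x P ⟨i, σ, rfl, rfl⟩
      rw [stabilizer_vx, hS i, conj_map, atV_vx φ (hB i).normQ, atV_vx φ (hB i).normV,
        conj_map, conj_map]
      set ψ := (MulAut.conj σ).toMonoidHom.comp (φ i)
      refine ⟨(M i).map ψ, Subgroup.map_mono (hB i).le_M,
        (Subgroup.map_lt_map_iff_of_injective (hinj i σ)).2 (lt_top_iff_ne_top.2 (hB i).M_ne), ?_, ?_, ?_⟩
      · intro H hSH hH hne
        have e : (H.comap ψ).map ψ = H := Subgroup.map_comap_eq_self (hH.trans (by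
          rw [MonoidHom.range_eq_map]))
        rw [← e]
        refine Subgroup.map_mono ((hB i).uniq _ (fun s hs => hSH ⟨s, hs, rfl⟩) fun htop => hne ?_)
        rw [← e, htop]
      · rintro _ ⟨g, -, rfl⟩ _ ⟨z, hz, rfl⟩ hzQ h
        refine ⟨g, (hB i).ti g z hz (fun hc => hzQ ⟨z, hc, rfl⟩) ?_, rfl⟩
        obtain ⟨s, hs, e⟩ := h
        rw [← map_inv, ← map_mul, ← map_mul] at e
        rwa [← hinj i σ e]
      · rintro _ ⟨g, -, rfl⟩ h
        exact ⟨g, (hB i).centV g fun v hv => hinj i σ (by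
          rw [map_mul, map_mul]; exact h _ ⟨v, hv, rfl⟩), rfl⟩
    card_V := by
      rintro x P ⟨i, σ, rfl, rfl⟩
      rw [atV_vx φ (hB i).normQ, atV_vx φ (hB i).normV, hS i, conj_map, conj_map, conj_map,
        map_inf_centralizer_map (hinj i σ), Subgroup.card_map_of_injective (hinj i σ),
        Subgroup.card_map_of_injective (hinj i σ), Subgroup.card_map_of_injective (hinj i σ),
        Subgroup.card_map_of_injective (hinj i σ)]
      exact (hB i).card_V
    fix_eq := by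
      rintro x P ⟨i, σ, rfl, rfl⟩ g hg hgQ v hv hgv
      rw [atV_vx φ (hB i).normQ, conj_map] at hgQ
      rw [atV_vx φ (hB i).normV, conj_map] at hv
      rw [hS i, conj_map] at hg ⊢
      obtain ⟨g, hg, rfl⟩ := hg
      obtain ⟨v, hv, rfl⟩ := hv
      rintro _ ⟨s, hs, rfl⟩
      rw [← map_mul, ← map_mul, (hB i).fix_eq g hg (fun h => hgQ ⟨g, h, rfl⟩) v hv
        (hinj i σ (by rwa [map_mul, map_mul])) s hs]
    comm_le := by
      rintro x P ⟨i, σ, rfl, rfl⟩
      rw [atV_vx φ (hB i).normV, hS i, conj_map, conj_map, ← Subgroup.map_commutator,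
        map_inf_centralizer_map (hinj i σ)]
      exact Subgroup.map_mono (hB i).comm_le
    line := by
      rintro x P ⟨i, σ, rfl, rfl⟩
      rw [atV_vx φ (hB i).normV, hS i, conj_map, conj_map, ← Subgroup.map_commutator, stabilizer_vx, map_inf_centralizer_map (hinj i σ), (hB i).line, Subgroup.map_bot]
    offender := by
      rintro x P ⟨i, σ, rfl, rfl⟩
      obtain ⟨A, hA, hAQ⟩ := (hB i).offender
      rw [hS i, conj_map, atV_vx φ (hB i).normQ, conj_map]
      exact ⟨_, hA.map (hinj i σ), fun h => hAQ ((Subgroup.map_le_map_iff_of_injective (hinj i σ)).1 h)⟩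
    bad := by
      rintro x P ⟨i, σ, rfl, rfl⟩ u hu huQ R hR hn h1 h2
      rw [atV_vx φ (hB i).normQ, conj_map] at huQ hR h1
      rw [atV_vx φ (hB i).normV, conj_map] at h2
      rw [stabilizer_vx] at hn
      rw [hS i, conj_map] at hu
      obtain ⟨u, hu, rfl⟩ := hu
      set ψ := (MulAut.conj σ).toMonoidHom.comp (φ i)
      have hinjψ : Function.Injective ψ := hinj i σ
      refine (hB i).bad u hu (fun h => huQ ⟨u, h, rfl⟩) (R.comap ψ) (fun a ha => ?_) ⟨fun a ha g => ?_⟩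
        (fun s hs => ?_) fun s hs => ?_
      · obtain ⟨b, hb, e⟩ := hR ha
        exact hinjψ e ▸ hb
      · show ψ (g * a * g⁻¹) ∈ R
        rw [map_mul, map_mul, map_inv]
        exact hn _ ⟨g, trivial, rfl⟩ _ ha
      · show ψ ⁅⁅s, u⁆, u⁆ ∈ R
        rw [map_commutatorElement, map_commutatorElement]
        exact h1 _ ⟨s, hs, rfl⟩
      · obtain ⟨b, hb, e⟩ := h2 _ hs
        rw [← map_commutatorElement, ← map_commutatorElement] at e
        exact hinjψ e ▸ hb
    core := by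
      rintro x P ⟨i, σ, rfl, rfl⟩ H hHle hnorm hN
      set ψ := (MulAut.conj σ).toMonoidHom.comp lam with hψ
      have e : (H.comap ψ).map ψ = H := Subgroup.map_comap_eq_self (hHle.trans (by
        rw [hψ, MonoidHom.range_comp]; exact le_rfl))
      rw [← e, hcore (H.comap ψ) ?_ fun j => ⟨fun a ha g => ?_⟩, Subgroup.map_bot]
      · refine Subgroup.characteristic_iff_le_comap.2 fun α t ht => ?_
        obtain ⟨ρ, hρ⟩ := haut α
        have key : ∀ s, σ * ρ * σ⁻¹ * ψ s * (σ * ρ * σ⁻¹)⁻¹ = ψ (α s) := fun s => by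
          show σ * ρ * σ⁻¹ * (σ * lam s * σ⁻¹) * (σ * ρ * σ⁻¹)⁻¹ = σ * lam (α s) * σ⁻¹
          rw [← hρ s]; simp [mul_assoc]
        show ψ (α t) ∈ H
        rw [← key t]
        refine hN _ (cj_eq_self fun z hz => ?_) _ ht
        obtain ⟨_, ⟨s, rfl⟩, rfl⟩ := hz
        exact ⟨_, ⟨α s, rfl⟩, (key s).symm⟩
      · obtain ⟨t, ht, rfl⟩ := ha
        have h1 := hnorm (vx φ j σ) ⟨j, σ, rfl, rfl⟩ (σ * φ j g * σ⁻¹) (by
          rw [stabilizer_vx]; exact ⟨g, trivial, rfl⟩) _ ht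
        obtain ⟨_, ⟨s, rfl⟩, es⟩ := hHle h1
        refine ⟨s, ?_, hφi j ((MulAut.conj σ).injective ?_)⟩
        · show ψ s ∈ H
          exact es ▸ h1
        · refine (congrArg (fun z => σ * z * σ⁻¹) (DFunLike.congr_fun (hφ j) s)).trans (es.trans ?_)
          show σ * φ j g * σ⁻¹ * (σ * lam t * σ⁻¹) * (σ * φ j g * σ⁻¹)⁻¹ =
            σ * φ j (g * τ j t * g⁻¹) * σ⁻¹
          rw [map_mul, map_mul, map_inv, ← hφ j]
          simp [mul_assoc] }

end

/-- A finite family of bad members has a nontrivial common characteristic subgroup. -/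
theorem exists_common {p : ℕ} [Fact p.Prime] (hp2 : p ≠ 2) {ι : Type*} [Finite ι] [Nonempty ι]
    {T : Type*} [Group T] [Finite T] {G : ι → Type*} [∀ i, Group (G i)] [∀ i, Finite (G i)]
    (τ : ∀ i, T →* G i) (hτ : ∀ i, Function.Injective (τ i)) (Q V M : ∀ i, Subgroup (G i))
    (hB : ∀ i, Member p (G i) (τ i).range (Q i) (V i) (M i)) :
    ∃ K : Subgroup T, K ≠ ⊥ ∧ K.Characteristic ∧ ∀ i, (K.map (τ i)).Normal := by
  classical
  by_contra hno
  push Not at hno
  haveI := Fintype.ofFinite ι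
  set n := ∏ i, (τ i).range.index
  have hn0 : n ≠ 0 := Finset.prod_ne_zero_iff.2 fun i _ => Subgroup.index_ne_zero_of_finite
  choose φ hφi hφ using fun i => exists_aligned (τ i) (hτ i) n (Finset.dvd_prod_of_mem _ (Finset.mem_univ i)) hn0
  let lam : T →* Equiv.Perm (T × Fin n) :=
    { toFun := fun t => (Equiv.mulLeft t).prodCongr (Equiv.refl (Fin n))
      map_one' := Equiv.ext fun z => by simp
      map_mul' := fun s t => Equiv.ext fun z => by simp [mul_assoc, Prod.map] }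
  let D := sys φ τ Q V M hB lam hφi (fun i => MonoidHom.ext fun t => Equiv.ext fun z => hφ i t z)
    (Classical.arbitrary ι)
    (fun α => ⟨α.toEquiv.prodCongr (Equiv.refl (Fin n)), fun t => Equiv.ext fun z => by
      simp [lam, Prod.map]⟩)
    (fun K hK hn => by
      by_contra hne
      obtain ⟨i, hi⟩ := hno K hne hK
      exact hi (hn i))
  exact D.false_of_bad hp2

end CfsgLib.PushUp.CommonCore
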