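import Cfsg.Agent.Lib.PushUp.CommonCore.Quad
import Cfsg.Agent.Lib.PushUp.CommonCore.Algebra

/-!
Pushing up with several types of vertices: where a shift fails, the far end induces a function on `W` of
the second vertex that is invariant under the first edge.
-/

set_option autoImplicit false
set_option linter.style.haveILetI false
set_option linter.unusedSectionVars false

namespace CfsgLib.PushUp.CommonCore

open scoped commutatorElement
open CfsgLib.PushUp.RankOne (cj mem_cj conj_mem_cj cj_one cj_mul cj_inv_cj cj_cj_inv cj_mono card_cj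
  cj_eq_self cj_eq_self_of_mem exists_mul_of_mem_sup le_normalizer_of_conj commutator_eq_one_of)

variable {X : Type*} [Group X] {p : ℕ} {Γ : Type*} [MulAction X Γ]

namespace Sys

variable (D : Sys p X Γ) [Finite X] [hp : Fact p.Prime] {x y z : Γ} {P P' : Subgroup X}
variable {L m : ℕ} {v : ℕ → Γ} {Pc : ℕ → Subgroup X}

/-- The subgroup generated by the `V` within distance two. -/
def W2 (x : Γ) : Subgroup X := ⨆ w, ⨆ (_ : D.Near 2 x w), D.V w

theorem V_le_W2 {x w : Γ} (h : D.Near 2 x w) : D.V w ≤ D.W2 x := le_iSup₂_of_le w h le_rfl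

theorem W2_conj {x : Γ} {g : X} (hg : g ∈ D.Gv x) {w : X} (hw : w ∈ D.W2 x) : g * w * g⁻¹ ∈ D.W2 x := by
  have h1 : cj g (D.W2 x) ≤ D.W2 x := by
    rw [W2, cj, Subgroup.map_iSup]
    refine iSup_le fun y => ?_
    rw [Subgroup.map_iSup]
    refine iSup_le fun hy => ?_
    refine le_iSup₂_of_le (g • y) ?_ (by rw [D.smul_V]; exact le_rfl)
    have := D.smul_near g hy
    rwa [D.fixes hg] at this
  exact h1 (conj_mem_cj hw)

theorem W2_comm {x : Γ} (hb : 5 ≤ D.b) {a c : X} (ha : a ∈ D.W2 x) (hc : c ∈ D.W2 x) :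
    a * c = c * a := by
  have h1 : D.W2 x ≤ Subgroup.centralizer (D.W2 x : Set X) := by
    refine iSup₂_le fun w hw => Subgroup.le_centralizer_iff.1 (iSup₂_le fun w' hw' => ?_)
    exact fun e he f hf => D.commute_of_near (k := 2 + 2) (by omega)
      (D.near_add (D.near_symm hw) hw') hf he
  exact (h1 hc) a ha

theorem W_le_W2 {x y : Γ} (h : D.I x P) (h' : D.I y P) : D.W y ≤ D.W2 x :=
  iSup₂_le fun _ hP' => iSup₂_le fun _ hw =>
    D.V_le_W2 (D.near_add (k := 1) (l := 1) (D.near_one h h') (D.near_one hP' hw))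

theorem pow_W2 {x : Γ} (hb : 5 ≤ D.b) {a : X} (ha : a ∈ D.W2 x) : a ^ p = 1 := by
  let K : Subgroup X :=
    { carrier := {a | a ∈ D.W2 x ∧ a ^ p = 1}
      one_mem' := ⟨one_mem _, one_pow p⟩
      mul_mem' := fun {a c} ha hc => ⟨mul_mem ha.1 hc.1, by
        rw [(show Commute a c from D.W2_comm hb ha.1 hc.1).mul_pow, ha.2, hc.2, mul_one]⟩
      inv_mem' := fun {a} ha => ⟨inv_mem ha.1, by rw [inv_pow, ha.2, inv_one]⟩ }
  exact ((iSup₂_le fun w hw e he => ⟨D.V_le_W2 hw he, D.powV e he⟩ : D.W2 x ≤ K) ha).2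

section Fail

variable (hC : D.Chain L m v Pc) (hb : 5 ≤ D.b) (hL : D.b ≤ L)
include hC hb hL

theorem quad_W2 {u : X} (hu : u ∈ D.V (v D.b)) (huP : u ∈ Pc 0) {a : X} (ha : a ∈ D.W2 (v 0)) :
    u * ⁅u, a⁆ * u⁻¹ = ⁅u, a⁆ := by
  have hI := hC.left 0 (by omega)
  have huG := D.le_G hI huP
  have hmem : ∀ a ∈ D.W2 (v 0), ⁅u, a⁆ ∈ D.W2 (v 0) := fun a ha => by
    simpa [commutatorElement_def] using mul_mem (D.W2_conj huG ha) (inv_mem ha)
  have hone : ∀ a ∈ D.W2 (v 0), ∀ c ∈ D.W2 (v 0), ⁅u, a * c⁆ = ⁅u, a⁆ * ⁅u, c⁆ := fun a ha c hc => by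
    have e : ⁅u, a * c⁆ = ⁅u, a⁆ * (a * ⁅u, c⁆ * a⁻¹) := by simp [commutatorElement_def, mul_assoc]
    rw [e, D.W2_comm hb ha (hmem c hc), mul_inv_cancel_right]
  let K : Subgroup X :=
    { carrier := {a | a ∈ D.W2 (v 0) ∧ u * ⁅u, a⁆ * u⁻¹ = ⁅u, a⁆}
      one_mem' := ⟨one_mem _, by simp⟩
      mul_mem' := fun {a c} ha hc => ⟨mul_mem ha.1 hc.1, by
        rw [hone a ha.1 c hc.1]
        calc u * (⁅u, a⁆ * ⁅u, c⁆) * u⁻¹ = u * ⁅u, a⁆ * u⁻¹ * (u * ⁅u, c⁆ * u⁻¹) := by group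
          _ = _ := by rw [ha.2, hc.2]⟩
      inv_mem' := fun {a} ha => ⟨inv_mem ha.1, by
        have h1 := hone a ha.1 a⁻¹ (inv_mem ha.1)
        rw [mul_inv_cancel, commutatorElement_one_right] at h1
        rw [← inv_eq_of_mul_eq_one_right h1.symm]
        calc u * ⁅u, a⁆⁻¹ * u⁻¹ = (u * ⁅u, a⁆ * u⁻¹)⁻¹ := by group
          _ = _ := by rw [ha.2]⟩ }
  refine ((iSup₂_le fun w hw e he => ⟨D.V_le_W2 hw he, ?_⟩ : D.W2 (v 0) ≤ K) ha).2
  have he1 : e ∈ D.Gv (v (D.b - 3 + 1)) := hC.fix_mem D he (k := 2 + (D.b - 3)) (by omega)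
    (D.near_add (D.near_symm hw) (hC.near D (i := 0) (j := D.b - 3) (by omega) (by omega))) (by omega)
  have hn := hC.near D (i := D.b - 3 + 1) (j := D.b) (by omega) hL
  have h1 := D.smul_near e hn
  rw [D.fixes he1] at h1
  have hu' : e * u * e⁻¹ ∈ D.V (e • v D.b) := by rw [D.smul_V]; exact conj_mem_cj hu
  have h2 := D.commute_of_near (k := D.b - (D.b - 3 + 1) + (D.b - (D.b - 3 + 1))) (by omega)
    (D.near_add (D.near_symm h1) hn) hu' hu
  have h3 : Commute u ⁅u, e⁆ := by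
    have e1 : ⁅u, e⁆ = u * (e * u * e⁻¹)⁻¹ := by simp [commutatorElement_def, mul_assoc]
    rw [e1]
    exact (Commute.refl u).mul_right (Commute.inv_right h2.symm)
  rw [h3.eq, mul_inv_cancel_right]

/-- Conjugates of the walk by elements fixing its start are walks. -/
theorem smul_comm_univ {t : X} (ht : t ∈ Pc 0) {u a : X} {w : Γ} {P' : Subgroup X}
    (hP' : D.I (v 1) P') (hw : D.I w P') (hu : u ∈ D.V (v D.b)) (ha : a ∈ D.V w) :
    ⁅t * u * t⁻¹, a⁆ ∈ ⁅D.V (v 0), Pc 0⁆ := by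
  have hI := hC.left 0 (by omega)
  have hI1 := hC.right 0 (by omega)
  have htG := D.le_G hI1 ht
  have hnear : D.Near (D.b - 1) (t⁻¹ • w) (v (D.b - 1)) := by
    have h1 := D.smul_near t⁻¹ (D.near_one hw hP')
    rw [D.fixes ((D.Gv (v 1)).inv_mem htG)] at h1
    exact D.near_mono (by omega)
      (D.near_add h1 (hC.near D (i := 1) (j := D.b - 1) (by omega) (by omega)))
  have ha' : t⁻¹ * a * t ∈ D.V (t⁻¹ • w) := by
    rw [D.smul_V]; simpa using conj_mem_cj (g := t⁻¹) ha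
  have h1 := hC.comm_univ D hL hnear hu ha'
  have h2 := (D.comm_le hI h1).2 t ht
  have e : ⁅t * u * t⁻¹, a⁆ = t * ⁅u, t⁻¹ * a * t⁆ * t⁻¹ := by
    simp [commutatorElement_def, mul_assoc]
  rw [e, h2, mul_inv_cancel_right]
  exact h1

theorem comm_W_one {t : X} (ht : t ∈ Pc 0) {u a : X} (hu : u ∈ D.V (v D.b)) (huP : u ∈ Pc 0)
    (ha : a ∈ D.W (v 1)) : ⁅t * u * t⁻¹, a⁆ ∈ ⁅D.V (v 0), Pc 0⁆ := by
  have hI := hC.left 0 (by omega)
  have hI1 := hC.right 0 (by omega)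
  have htu : t * u * t⁻¹ ∈ Pc 0 := mul_mem (mul_mem ht huP) (inv_mem ht)
  have hW1 := D.W_le_Q (by omega) (v 1)
  let K : Subgroup X :=
    { carrier := {a | a ∈ D.W (v 1) ∧ ⁅t * u * t⁻¹, a⁆ ∈ ⁅D.V (v 0), Pc 0⁆}
      one_mem' := ⟨one_mem _, by simp⟩
      mul_mem' := fun {a c} ha hc => ⟨mul_mem ha.1 hc.1, by
        have e : ⁅t * u * t⁻¹, a * c⁆ = ⁅t * u * t⁻¹, a⁆ * (a * ⁅t * u * t⁻¹, c⁆ * a⁻¹) := by
          simp [commutatorElement_def, mul_assoc]
        rw [e]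
        have h1 := (D.comm_le hI hc.2).2 a (D.Q_le hI1 (hW1 ha.1))
        rw [h1, mul_inv_cancel_right]
        exact mul_mem ha.2 hc.2⟩
      inv_mem' := fun {a} ha => ⟨inv_mem ha.1, by
        have e : ⁅t * u * t⁻¹, a⁻¹⁆ = a⁻¹ * ⁅t * u * t⁻¹, a⁆⁻¹ * a := by
          simp [commutatorElement_def, mul_assoc]
        rw [e]
        have h1 := (D.comm_le hI (inv_mem ha.2)).2 a⁻¹ (inv_mem (D.Q_le hI1 (hW1 ha.1)))
        rw [h1, inv_mul_cancel_right]
        exact inv_mem ha.2⟩ }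
  exact ((iSup₂_le fun P' hP' => iSup₂_le fun w hw e he =>
    ⟨D.U_le_W hP' (D.V_le_U hw he), D.smul_comm_univ hC hb hL ht hP' hw hu he⟩ : D.W (v 1) ≤ K) ha).2

variable (hF : D.Fail v Pc)
include hF

/-- The commutators with `u` are invariant under `Q` of the first vertex. -/
theorem comm_invariant_Q {u t : X} (hu : u ∈ D.V (v D.b)) (huP : u ∈ Pc 0) (huQ : u ∉ D.Q (v 0))
    (ht : t ∈ D.Q (v 0)) (hp2 : p ≠ 2) {a : X} (ha : a ∈ D.W (v 1)) :
    ⁅t * u * t⁻¹, a⁆ = ⁅u, a⁆ := by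
  classical
  have hI := hC.left 0 (by omega)
  have hI1 := hC.right 0 (by omega)
  have huG := D.le_G hI huP
  have htP := D.Q_le hI ht
  have htG := D.le_G hI htP
  obtain ⟨g, hg, hgM⟩ := D.exists_not_mem hI
  set w := g * u * g⁻¹ with hwdef
  have hwP : w ∈ cj g (Pc 0) := conj_mem_cj huP
  have hI' : D.I (v 0) (cj g (Pc 0)) := D.I_conj hg hI
  have hne' := D.M_cj_not_mem hI hg hgM
  have hwQ : w ∉ D.Q (v 0) := fun h => huQ (by
    have := D.normQ g⁻¹ ((D.Gv (v 0)).inv_mem hg) w h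
    simpa [hwdef, mul_assoc] using this)
  have hwG : w ∈ D.Gv (v 0) := D.le_G hI' hwP
  have hwM : w ∉ D.M (v 0) (Pc 0) := fun h => hne' (D.M_eq_of_mem hI' hI hwP hwQ h)
  set W := D.W2 (v 0)
  haveI : IsMulCommutative W := ⟨⟨fun a c => Subtype.ext (D.W2_comm hb a.2 c.2)⟩⟩
  letI : CommGroup W := { (inferInstance : Group W) with mul_comm := fun a c => Subtype.ext (D.W2_comm hb a.2 c.2) }
  let op : ↥(D.Gv (v 0)) → (Additive W →+ Additive W) := fun g =>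
    { toFun := fun a => Additive.ofMul ⟨(g : X) * (a.toMul : X) * (g : X)⁻¹, D.W2_conj g.2 a.toMul.2⟩
      map_zero' := congrArg Additive.ofMul (Subtype.ext (by simp))
      map_add' := fun a c => congrArg Additive.ofMul (Subtype.ext (by simp [mul_assoc])) }
  let val : Additive W → X := fun a => (a.toMul : X)
  have val_inj : Function.Injective val := fun a c h => Additive.toMul.injective (Subtype.ext h)
  have val_add : ∀ a c, val (a + c) = val a * val c := fun _ _ => rfl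
  have val_sub : ∀ a c, val (a - c) = val a * (val c)⁻¹ := fun a c => by
    simp [val, div_eq_mul_inv]
  have val_op : ∀ (g : ↥(D.Gv (v 0))) a, val (op g a) = (g : X) * val a * (g : X)⁻¹ := fun _ _ => rfl
  set r := u⁻¹ * (t * u * t⁻¹) with hrdef
  have hrR : r ∈ D.Q (v 0) ⊓ D.Q (v 1) := by
    have h1 := D.R_normal hC (by omega) hL hF ((D.Gv (v 0)).inv_mem huG)
      (D.comm_mem_R hC (by omega) hL hF ht hu huP)
    simpa [hrdef, commutatorElement_def, mul_assoc] using h1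
  have hrG : r ∈ D.Gv (v 0) := D.Q_le_G _ hrR.1
  have htuG : t * u * t⁻¹ ∈ D.Gv (v 0) := mul_mem (mul_mem htG huG) (inv_mem htG)
  let U := op ⟨u, huG⟩
  let Ui := op ⟨u⁻¹, (D.Gv (v 0)).inv_mem huG⟩
  let Vv := op ⟨w, hwG⟩
  let Vi := op ⟨w⁻¹, (D.Gv (v 0)).inv_mem hwG⟩
  let f : Additive W →+ Additive W := op ⟨r, hrG⟩ - AddMonoidHom.id _
  have val_f : ∀ a, val (f a) = ⁅r, val a⁆ := fun a => by
    show val (op ⟨r, hrG⟩ a - a) = _
    rw [val_sub, val_op ⟨r, hrG⟩, commutatorElement_def]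
  -- the fixed part
  let C₀ : AddSubgroup (Additive W) :=
    { carrier := {a | val a ∈ D.V (v 0) ⊔ D.V (v 1)}
      zero_mem' := (D.V (v 0) ⊔ D.V (v 1)).one_mem
      add_mem' := fun {a c} ha hc => (D.V (v 0) ⊔ D.V (v 1)).mul_mem ha hc
      neg_mem' := fun {a} ha => (D.V (v 0) ⊔ D.V (v 1)).inv_mem ha }
  have hU'U : D.V (v 0) ⊔ D.V (v 1) ≤ D.U (Pc 0) := sup_le (D.V_le_U hI) (D.V_le_U hI1)
  have hC0conj : ∀ g ∈ D.Gv (v 0), ∀ c ∈ D.V (v 0) ⊔ D.V (v 1), g * c * g⁻¹ ∈ D.V (v 0) ⊔ D.V (v 1) :=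
    fun g hg c hc => by
      have e : g * c * g⁻¹ = ⁅g, c⁆ * c := by simp [commutatorElement_def]
      rw [e]
      exact mul_mem (Subgroup.mem_sup_left (D.comm_U_le hC (by omega) hL hF hg (hU'U hc))) hc
  have hRfix : ∀ s ∈ D.Q (v 0) ⊓ D.Q (v 1), D.V (v 0) ⊔ D.V (v 1) ≤ Subgroup.centralizer ({s} : Set X) :=
    fun s hs => sup_le (fun c hc => Subgroup.mem_centralizer_singleton_iff.2 (D.comm s hs.1 c hc).symm)
      (fun c hc => Subgroup.mem_centralizer_singleton_iff.2 (D.comm s hs.2 c hc).symm)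
  have hWW : D.W (v 1) ≤ W := D.W_le_W2 hI hI1
  have hval : ∀ s ∈ D.Q (v 0) ⊓ D.Q (v 1), ∀ c ∈ D.W (v 1), ⁅s, c⁆ ∈ D.V (v 1) := by
    intro s hs
    let K : Subgroup X :=
      { carrier := {c | c ∈ D.W (v 1) ∧ ⁅s, c⁆ ∈ D.V (v 1)}
        one_mem' := ⟨one_mem _, by simp⟩
        mul_mem' := fun {a c} ha hc => ⟨mul_mem ha.1 hc.1, by
          have e : ⁅s, a * c⁆ = ⁅s, a⁆ * (a * ⁅s, c⁆ * a⁻¹) := by simp [commutatorElement_def, mul_assoc]
          rw [e]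
          exact mul_mem ha.2 (D.normV a (D.Q_le_G _ (D.W_le_Q (by omega) _ ha.1)) _ hc.2)⟩
        inv_mem' := fun {a} ha => ⟨inv_mem ha.1, by
          have e : ⁅s, a⁻¹⁆ = a⁻¹ * ⁅s, a⁆⁻¹ * a⁻¹⁻¹ := by simp [commutatorElement_def, mul_assoc]
          rw [e]
          exact D.normV _ (D.Q_le_G _ (D.W_le_Q (by omega) _ (inv_mem ha.1))) _ (inv_mem ha.2)⟩ }
    intro c hc
    refine ((iSup₂_le fun P' hP' => iSup₂_le fun y hy e he =>
      ⟨D.U_le_W hP' (D.V_le_U hy he), ?_⟩ : D.W (v 1) ≤ K) hc).2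
    have h1 : ⁅s, e⁆ ∈ ⁅D.V y, P'⁆ := by
      rw [Subgroup.commutator_comm]
      exact Subgroup.commutator_mem_commutator (D.Q_le hP' hs.2) he
    exact D.center_mem hy hP' (D.comm_le hy h1).1 (D.comm_le hy h1).2
  have hufix : ∀ c ∈ D.V (v 1), u * c * u⁻¹ = c := fun c hc => by
    rw [D.comm u (D.mem_Q_one hC (by omega) hL hF hu) c hc, mul_inv_cancel_right]
  -- the value of a conjugate derivation at a point of `W`
  have hconjf : ∀ h ∈ D.Gv (v 0), ∀ c ∈ D.W (v 1), h⁻¹ * ⁅r, h * c * h⁻¹⁆ * h ∈ D.V (v 1) := by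
    intro h hh c hc
    have h1 := hval _ (D.R_normal hC (by omega) hL hF ((D.Gv (v 0)).inv_mem hh) hrR) c hc
    simpa [commutatorElement_def, mul_assoc] using h1
  set am : Additive W := Additive.ofMul ⟨a, hWW ha⟩ with ham
  have hvam : val am = a := rfl
  have h2 : ∀ e : Additive W, e + e = 0 → e = 0 := fun e he => val_inj <| by
    have h1 : (val e) ^ 2 = 1 := by rw [sq, ← val_add, he]; rfl
    show val e = 1
    exact orderOf_eq_one_iff.1 (Nat.eq_one_of_dvd_coprimes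
      ((Nat.coprime_primes Nat.prime_two hp.out).2 (Ne.symm hp2))
      (orderOf_dvd_of_pow_eq_one h1) (orderOf_dvd_of_pow_eq_one (D.pow_W2 hb e.toMul.2)))
  have huq : ∀ (u' : X) (hu'G : u' ∈ D.Gv (v 0)),
      (∀ c ∈ W, u' * ⁅u', c⁆ * u'⁻¹ = ⁅u', c⁆) →
      ∀ e, op ⟨u', hu'G⟩ (op ⟨u', hu'G⟩ e - e) = op ⟨u', hu'G⟩ e - e := fun u' hu'G h e => val_inj <| by
    rw [val_op, val_sub, val_op]
    exact h _ e.toMul.2
  have hqu : ∀ c ∈ W, u * ⁅u, c⁆ * u⁻¹ = ⁅u, c⁆ := fun c hc => D.quad_W2 hC hb hL hu huP hc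
  have hqconj : ∀ h ∈ D.Gv (v 0), ∀ c ∈ W, (h * u * h⁻¹) * ⁅h * u * h⁻¹, c⁆ * (h * u * h⁻¹)⁻¹ =
      ⁅h * u * h⁻¹, c⁆ := by
    intro h hh c hc
    have h1 := congrArg (fun e => h * e * h⁻¹)
      (hqu _ (D.W2_conj ((D.Gv (v 0)).inv_mem hh) hc))
    simpa [commutatorElement_def, mul_assoc] using h1
  have hcomp : ∀ e, U (e + f e) = op ⟨t * u * t⁻¹, htuG⟩ e := fun e => val_inj <| by
    rw [add_comm e, val_op, val_add, val_f, val_op]
    simp [hrdef, commutatorElement_def, mul_assoc]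
  have key := fixed_of_quadratic h2 U Ui Vv Vi f
    (fun e => val_inj (by simp [Ui, U, val_op, mul_assoc]))
    (fun e => val_inj (by simp [Vi, Vv, val_op, mul_assoc]))
    (fun e => val_inj (by simp [Vi, Vv, val_op, mul_assoc]))
    (huq u huG hqu) (huq w hwG (hqconj g hg))
    (fun e => by rw [hcomp, hcomp]; exact huq _ htuG (hqconj t htG) e)
    C₀ (fun e he => val_inj (by
      rw [val_f]
      exact commutator_eq_one_of (Subgroup.mem_centralizer_singleton_iff.1 (hRfix r hrR he)).symm))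
    (fun e he => by
      show val (U e) ∈ D.V (v 0) ⊔ D.V (v 1)
      rw [val_op]; exact hC0conj u huG _ he)
    am (by
      show val (U am - am) ∈ D.V (v 0) ⊔ D.V (v 1)
      rw [val_sub, val_op, hvam]
      have h1 := D.comm_W_one hC hb hL (one_mem _) hu huP ha
      rw [one_mul, inv_one, mul_one] at h1
      exact Subgroup.mem_sup_left (hC.comm_le_V D (by omega) h1))
    (by
      show val (f (Vv am) - f am) ∈ D.V (v 0) ⊔ D.V (v 1)
      rw [val_sub, val_f, val_f, val_op, hvam]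
      refine mul_mem ?_ (inv_mem (Subgroup.mem_sup_right (hval r hrR a ha)))
      have h1 := hC0conj w hwG _ (Subgroup.mem_sup_right (hconjf w hwG a ha))
      simpa [mul_assoc] using h1)
    (val_inj (by rw [val_op, val_f, hvam]; exact hufix _ (hval r hrR a ha)))
    (val_inj (by
      rw [val_op, val_op, val_f, val_op, hvam]
      simpa using hufix _ (hconjf w hwG a ha)))
    (val_inj (by
      rw [val_op, val_op, val_f, val_op, hvam]
      simpa using hufix _ (hconjf w⁻¹ ((D.Gv (v 0)).inv_mem hwG) a ha)))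
    (val_inj (by
      rw [val_op, val_op, val_op, val_f, val_op, val_op, hvam]
      have h1 := hufix _ (hconjf (u⁻¹ * w) (mul_mem ((D.Gv (v 0)).inv_mem huG) hwG) a ha)
      simpa [mul_assoc] using h1))
  -- translate
  set l := ⁅r, a⁆ with hl
  have hl1 : l = ⁅t * u * t⁻¹, a⁆ * ⁅u, a⁆⁻¹ := by
    have h1 := hufix _ (hval r hrR a ha)
    have e : u * l * u⁻¹ = ⁅t * u * t⁻¹, a⁆ * ⁅u, a⁆⁻¹ := by
      simp [hl, hrdef, commutatorElement_def, mul_assoc]
    rw [← e, h1]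
  have hlL : l ∈ ⁅D.V (v 0), Pc 0⁆ := by
    rw [hl1]
    refine mul_mem (D.comm_W_one hC hb hL htP hu huP ha) (inv_mem ?_)
    have h1 := D.comm_W_one hC hb hL (one_mem _) hu huP ha
    rwa [one_mul, inv_one, mul_one] at h1
  have hlV : l ∈ D.V (v 0) := hC.comm_le_V D (by omega) hlL
  set n := u * (w * l * w⁻¹) * u⁻¹ * (w * l * w⁻¹)⁻¹ with hn
  have hvn : val (U (Vv (f am)) - Vv (f am)) = n := by
    rw [val_sub, val_op, val_op, val_f, hvam]
  have hn1 : u * n * u⁻¹ = n := by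
    have h1 := congrArg val key.1
    rwa [val_op, hvn] at h1
  have hn2 : w * (u * (w⁻¹ * n * w⁻¹⁻¹) * u⁻¹) * w⁻¹ = n := by
    have h1 := congrArg val key.2
    rwa [val_op, val_op, val_op, hvn] at h1
  have hwlV : w * l * w⁻¹ ∈ D.V (v 0) := D.normV w hwG l hlV
  have hnV : n ∈ D.V (v 0) := mul_mem (D.normV u huG _ hwlV) (inv_mem hwlV)
  have hnL : n ∈ ⁅D.V (v 0), Pc 0⁆ := by
    rw [Subgroup.commutator_comm, hn, ← commutatorElement_def]
    exact Subgroup.commutator_mem_commutator huP hwlV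
  have hn0 : n = 1 := by
    refine D.eq_one_of_fixed hI hnL (D.I_conj hwG hI) (D.M_cj_not_mem hI hwG hwM) ?_
    refine D.fix_eq (D.I_conj hwG hI) (w * u * w⁻¹) (conj_mem_cj huP) (fun h => huQ ?_) n hnV ?_
    · have := D.normQ w⁻¹ ((D.Gv (v 0)).inv_mem hwG) _ h
      simpa [mul_assoc] using this
    · have : w * u * w⁻¹ * n * (w * u * w⁻¹)⁻¹ = n := by simpa [mul_assoc] using hn2
      exact mul_inv_eq_iff_eq_mul.1 this
  -- so `⁅w, l⁆` is central
  have hwl : ⁅w, l⁆ = 1 := by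
    have hmem : ⁅w, l⁆ ∈ ⁅D.V (v 0), cj g (Pc 0)⁆ := by
      rw [Subgroup.commutator_comm]; exact Subgroup.commutator_mem_commutator hwP hlV
    refine D.eq_one_of_fixed hI' hmem hI hne'.symm ?_
    refine D.fix_eq hI u huP huQ _ (D.comm_le hI' hmem).1 ?_
    have h1 : Commute u (w * l * w⁻¹) := by
      show u * (w * l * w⁻¹) = (w * l * w⁻¹) * u
      have h2 := hn0
      rw [hn, mul_inv_eq_one, mul_inv_eq_iff_eq_mul] at h2
      exact h2
    rw [commutatorElement_def]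
    exact h1.mul_right (Commute.inv_right (D.fix_eq hI u huP huQ l hlV
      (mul_inv_eq_iff_eq_mul.1 (hufix _ (hval r hrR a ha))) u huP))
  have hl0 : l = 1 := D.eq_one_of_fixed hI hlL hI' hne'
    (D.fix_eq hI' w hwP hwQ l hlV (commutatorElement_eq_one_iff_mul_comm.1 hwl))
  rw [hl1, mul_inv_eq_one] at hl0
  exact hl0

/-- The commutators with `u` on `W` of the second vertex are invariant under the first edge. -/
theorem comm_invariant {u : X} (hu : u ∈ D.V (v D.b)) (huP : u ∈ Pc 0) (huQ : u ∉ D.Q (v 0))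
    (hp2 : p ≠ 2) {h a : X} (hh : h ∈ Pc 0) (ha : a ∈ D.W (v 1)) :
    ⁅u, h * a * h⁻¹⁆ = ⁅u, a⁆ := by
  have hI := hC.left 0 (by omega)
  have hI1 := hC.right 0 (by omega)
  have hcr := hC.crit' D (i := 0) (by omega)
  simp only [Nat.zero_add] at hcr
  obtain ⟨u', hu', c, hc, rfl⟩ := hcr.exists_decomp D hh
  have hu'1 : u' ∈ D.Q (v 1) := D.mem_Q_one hC (by omega) hL hF hu'
  have hu'G : u' ∈ D.Gv (v 1) := D.Q_le_G _ hu'1
  have hcP := D.Q_le hI hc
  have hcG : c ∈ D.Gv (v 1) := D.le_G hI1 hcP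
  have haW : c * a * c⁻¹ ∈ D.W (v 1) := D.W_conj hcG ha
  have hconj : ∀ s ∈ Pc 0, ∀ e ∈ D.W (v 1), s * ⁅u, e⁆ * s⁻¹ = ⁅u, e⁆ := fun s hs e he => by
    have h1 := D.comm_W_one hC hb hL (one_mem _) hu huP he
    rw [one_mul, inv_one, mul_one] at h1
    rw [(D.comm_le hI h1).2 s hs, mul_inv_cancel_right]
  -- `c`
  have e1 : ⁅u, c * a * c⁻¹⁆ = ⁅u, a⁆ := by
    have h1 := D.comm_invariant_Q hC hb hL hF hu huP huQ ((D.Q (v 0)).inv_mem hc) hp2 ha
    calc ⁅u, c * a * c⁻¹⁆ = c * ⁅c⁻¹ * u * c⁻¹⁻¹, a⁆ * c⁻¹ := by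
          simp [commutatorElement_def, mul_assoc]
      _ = _ := by rw [h1, hconj c hcP a ha]
  -- `u'`
  have hu'P : u' ∈ Pc 0 := D.Q_le hI1 hu'1
  have e2 : u'⁻¹ * u * u'⁻¹⁻¹ = u := by
    rw [inv_inv, mul_assoc, ← D.commV hu' hu, inv_mul_cancel_left]
  calc ⁅u, u' * c * a * (u' * c)⁻¹⁆
      = u' * ⁅u'⁻¹ * u * u'⁻¹⁻¹, c * a * c⁻¹⁆ * u'⁻¹ := by simp [commutatorElement_def, mul_assoc]
    _ = ⁅u, c * a * c⁻¹⁆ := by rw [e2, hconj u' hu'P _ haW]
    _ = ⁅u, a⁆ := e1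

end Fail

end Sys

end CfsgLib.PushUp.CommonCore
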