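import Cfsg.Agent.Lib.PushUp.CommonCore.Invariant
import Cfsg.Agent.Lib.FFModules.MinimalParabolic.LocalFacts

/-!
Pushing up with several types of vertices: the axioms are contradictory.
-/

set_option autoImplicit false
set_option linter.style.haveILetI false
set_option linter.unusedSectionVars false

namespace CfsgLib.PushUp.CommonCore

open scoped commutatorElement
open CfsgLib.PushUp.RankOne (cj mem_cj conj_mem_cj cj_one cj_mul cj_inv_cj cj_cj_inv cj_mono card_cj
  cj_eq_self cj_eq_self_of_mem exists_mul_of_mem_sup le_normalizer_of_conj commutator_eq_one_of)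
open CfsgLib.FFModules.MinimalParabolic (card_mul_card_eq)

variable {X : Type*} [Group X] {p : ℕ} {Γ : Type*} [MulAction X Γ]

namespace Sys

variable (D : Sys p X Γ) [Finite X] [hp : Fact p.Prime] {x y z : Γ} {P P' : Subgroup X}
variable {v : ℕ → Γ} {Pc : ℕ → Subgroup X} {k : ℕ}

/-- The far end centralizes every edge at the second vertex lying over another maximal subgroup. -/
theorem comm_eq_one_of_edge (hp2 : p ≠ 2) (hb : 5 ≤ D.b)
    (hno : ¬ ∃ v Pc, D.Chain (D.b + (k + 1)) (k + 1) v Pc) (hC : D.Chain (D.b + k) k v Pc)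
    {u : X} (hu : u ∈ D.V (v D.b)) (huP : u ∈ Pc 0) (huQ : u ∉ D.Q (v 0))
    {E : Subgroup X} (hE : D.I (v 1) E) (hne : D.M (v 1) E ≠ D.M (v 1) (Pc 0))
    {w : Γ} (hw : D.I w E) {a : X} (ha : a ∈ D.V w) : ⁅u, a⁆ = 1 := by
  classical
  by_contra hau
  have hI := hC.left 0 (by omega)
  have hI1 : D.I (v 1) (Pc 0) := hC.right 0 (by omega)
  have hP1 : D.I (v 1) (Pc 1) := hC.left 1 (by omega)
  have hF := D.extend_or_fail (by omega) hno hC
  have haW : a ∈ D.W (v 1) := D.U_le_W hE (D.V_le_U hw ha)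
  -- normalize
  obtain ⟨w', E', a', hE', hne', hw', ha', hau', hgen⟩ : ∃ (w' : Γ) (E' : Subgroup X) (a' : X),
      D.I (v 1) E' ∧ D.M (v 1) E' ≠ D.M (v 1) (Pc 0) ∧ D.I w' E' ∧ a' ∈ D.V w' ∧ ⁅u, a'⁆ ≠ 1 ∧
      (1 ≤ k → D.M (v 1) E' ≠ D.M (v 1) (Pc 1)) := by
    by_cases hcase : 1 ≤ k ∧ D.M (v 1) E = D.M (v 1) (Pc 1)
    · obtain ⟨t, ht, htQ⟩ := D.ne_Q hI1
      have htG := D.le_G hI1 ht
      obtain ⟨h1, h2⟩ := D.M_cj_ne hI1 hE hne ht htQ
      refine ⟨t • w, cj t E, t * a * t⁻¹, D.I_conj htG hE, h2, D.smul_I t hw,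
        by rw [D.smul_V]; exact conj_mem_cj ha, ?_, fun _ e => h1 (e.trans hcase.2.symm)⟩
      rw [D.comm_invariant hC hb (by omega) hF hu huP huQ hp2 ht haW]
      exact hau
    · exact ⟨w, E, a, hE, hne, hw, ha, hau, fun hk e => hcase ⟨hk, e⟩⟩
  have hnot : ¬ D.V w' ≤ D.Q (v D.b) := fun hle =>
    hau' (commutator_eq_one_of (D.comm a' (hle ha') u hu).symm)
  let v' : ℕ → Γ := fun i => if i = 0 then w' else v i
  let Pc' : ℕ → Subgroup X := fun i => if i = 0 then E' else Pc i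
  have hv0 : v' 0 = w' := rfl
  have hP0 : Pc' 0 = E' := rfl
  have hvs : ∀ i, v' (i + 1) = v (i + 1) := fun i => by simp [v']
  have hPs : ∀ i, Pc' (i + 1) = Pc (i + 1) := fun i => by simp [Pc']
  have hbv : v' D.b = v D.b := by
    obtain ⟨c, hc⟩ : ∃ c, D.b = c + 1 := ⟨D.b - 1, by omega⟩
    rw [hc]; exact hvs c
  have hC' : D.Chain (D.b + k) k v' Pc' := by
    refine ⟨fun i hi => ?_, fun i hi => ?_, fun i hi => ?_, fun i hi hik => ?_⟩
    · cases i with
      | zero => exact hw'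
      | succ i => rw [hvs, hPs]; exact hC.left _ hi
    · cases i with
      | zero => rw [hvs]; exact hE'
      | succ i => rw [hvs, hPs]; exact hC.right _ hi
    · cases i with
      | zero => rw [Nat.zero_add, hbv]; exact hnot
      | succ i =>
        rw [hvs, show i + 1 + D.b = (i + D.b) + 1 by omega, hvs]
        rw [show (i + D.b) + 1 = i + 1 + D.b by omega]
        exact hC.crit _ hi
    · cases i with
      | zero =>
        rw [hvs, hPs, hP0]
        exact (D.gen_iff hE' hP1).2 (hgen hik).symm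
      | succ i => rw [hvs, hPs, hPs]; exact hC.gen _ hi hik
  have hF' := D.extend_or_fail (by omega) hno hC'
  have hu' : u ∈ D.V (v' D.b) := by rw [hbv]; exact hu
  have hcr' := hC'.crit' D (i := 0) (by omega)
  simp only [Nat.zero_add] at hcr'
  have huP' : u ∈ Pc' 0 := hcr'.mem_first hu'
  have huQ' : u ∉ D.Q (v' 0) := fun h => hau' (commutator_eq_one_of (D.comm u h a' ha'))
  -- the stabilizer
  let H : Subgroup X :=
    { carrier := {g | g ∈ D.Gv (v 1) ∧ ∀ c ∈ D.W (v 1), ⁅u, g * c * g⁻¹⁆ = ⁅u, c⁆}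
      one_mem' := ⟨one_mem _, fun c _ => by simp⟩
      mul_mem' := fun {g h} hg hh => ⟨mul_mem hg.1 hh.1, fun c hc => by
        have e : g * h * c * (g * h)⁻¹ = g * (h * c * h⁻¹) * g⁻¹ := by group
        rw [e, hg.2 _ (D.W_conj hh.1 hc), hh.2 c hc]⟩
      inv_mem' := fun {g} hg => ⟨inv_mem hg.1, fun c hc => by
        have h1 := hg.2 _ (D.W_conj (inv_mem hg.1) hc)
        simpa [mul_assoc] using h1.symm⟩ }
  have hH1 : Pc 0 ≤ H := fun h hh =>
    ⟨D.le_G hI1 hh, fun c hc => D.comm_invariant hC hb (by omega) hF hu huP huQ hp2 hh hc⟩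
  have hH2 : E' ≤ H := fun h hh =>
    ⟨D.le_G hE' hh, fun c hc => D.comm_invariant hC' hb (by omega) hF' hu' huP' huQ' hp2 hh
      (by rw [show v' 1 = v 1 from hvs 0]; exact hc)⟩
  have htop : D.Gv (v 1) ≤ H := ((D.gen_iff hI1 hE').2 hne').ge.trans (sup_le hH1 hH2)
  -- the second edge is centralized
  obtain ⟨g, hg, hgP⟩ := D.conj_I hI1 hP1
  refine huQ (D.cent hI u huP fun e he => ?_)
  refine commutatorElement_eq_one_iff_mul_comm.1 ?_
  rw [← (htop hg).2 e (D.U_le_W hI1 (D.V_le_U hI he))]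
  refine commutator_eq_one_of ?_
  have he' : g * e * g⁻¹ ∈ D.V (g • v 0) := by rw [D.smul_V]; exact conj_mem_cj he
  exact D.commute_of_near (k := D.b - 2 + 1) (by omega)
    (D.near_add (D.near_symm (hC.near D (i := 2) (j := D.b) (by omega) (by omega)))
      (D.near_one (hC.right 1 (by omega)) (by rw [hgP]; exact D.smul_I g hI))) hu he'

/-- A failing shift is impossible. -/
theorem false_of_fail (hp2 : p ≠ 2) (hb : 5 ≤ D.b)
    (hno : ¬ ∃ v Pc, D.Chain (D.b + (k + 1)) (k + 1) v Pc) (hC : D.Chain (D.b + k) k v Pc) : False := by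
  classical
  obtain ⟨u, hu, huP, huQ⟩ := hC.exists_moving D (by omega)
  have hI := hC.left 0 (by omega)
  have hI1 : D.I (v 1) (Pc 0) := hC.right 0 (by omega)
  have hF := D.extend_or_fail (by omega) hno hC
  obtain ⟨g₀, hg₀, hg₀M⟩ := D.exists_not_mem hI1
  set x₀ := v 0 with hx₀
  set y := v 1 with hy
  set P := Pc 0 with hPdef
  obtain ⟨A, hA, hAQ⟩ := D.offender hI1
  set B := A ⊓ D.Q y with hB
  let ι := ↥A ⧸ B.subgroupOf A
  have hAG : A ≤ D.Gv y := hA.le.trans (D.le_G hI1)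
  have hQG := D.Q_le_G y
  have hg : ∀ c ∈ A, c * g₀ ∈ D.Gv y := fun c hc => mul_mem (hAG hc) hg₀
  set Ps := cj g₀ P with hPs
  set xs := g₀ • x₀ with hxs
  have hIs : D.I y Ps := D.I_conj hg₀ hI1
  have hIxs : D.I xs Ps := D.smul_I g₀ hI
  have hMs : D.M y Ps ≠ D.M y P := D.M_cj_not_mem hI1 hg₀ hg₀M
  let vx : X → Γ := fun c => (c * g₀) • x₀
  have hvI : ∀ c ∈ A, D.I (vx c) (cj (c * g₀) P) := fun c _ => D.smul_I _ hI
  have hvy : ∀ c ∈ A, D.I y (cj (c * g₀) P) := fun c hc => D.I_conj (hg c hc) hI1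
  -- moving between the vertices
  have hfix : ∀ c ∈ B, c • xs = xs := fun c hc => D.fixes (D.le_G hIxs (D.Q_le hIs hc.2))
  let rep : ι → X := fun i => ((Quotient.out i : ↥A) : X)
  have hrep : ∀ i, rep i ∈ A := fun i => (Quotient.out i : ↥A).2
  let Wi : ι → Subgroup X := fun i => D.V (vx (rep i))
  set W' := D.V y ⊔ ⨆ i, Wi i with hW'
  have hVW : D.V y ≤ W' := le_sup_left
  have hWiW : ∀ i, Wi i ≤ W' := fun i => le_trans (le_iSup Wi i) le_sup_right
  have hWiWv : ∀ i, Wi i ≤ D.W y := fun i =>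
    le_trans (D.V_le_U (hvI _ (hrep i))) (D.U_le_W (hvy _ (hrep i)))
  have hWiQ : ∀ i, Wi i ≤ D.Q y := fun i => (hWiWv i).trans (D.W_le_Q (by omega) y)
  have hW'Q : W' ≤ D.Q y := sup_le (D.V_le y) (iSup_le hWiQ)
  have hcen : W' ≤ Subgroup.centralizer (W' : Set X) := by
    have h0 : ∀ i, Wi i ≤ Subgroup.centralizer (W' : Set X) := fun i => Subgroup.le_centralizer_iff.1 (by
      refine sup_le (fun e he f hf => (D.comm f (hWiQ i hf) e he)) (iSup_le fun j => fun e he f hf => ?_)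
      exact D.commute_of_near (k := 1 + 1) (by omega) (D.near_add (D.near_one (hvI _ (hrep i)) (hvy _ (hrep i)))
        (D.near_one (hvy _ (hrep j)) (hvI _ (hrep j)))) hf he)
    refine sup_le (fun e he f hf => ?_) (iSup_le h0)
    exact D.comm f (hW'Q hf) e he
  have hWcomm : ∀ e ∈ W', ∀ f ∈ W', e * f = f * e := fun e he f hf => (hcen hf) e he
  haveI : IsMulCommutative W' := ⟨⟨fun a c => Subtype.ext (hWcomm _ a.2 _ c.2)⟩⟩
  -- the functionals
  let ui : ι → X := fun i => (rep i * g₀) * u * (rep i * g₀)⁻¹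
  have hu1 : u ∈ D.Q y := D.mem_Q_one hC (by omega) (by omega) hF hu
  have huiQ : ∀ i, ui i ∈ D.Q y := fun i => D.normQ _ (hg _ (hrep i)) u hu1
  have hval0 : ∀ e ∈ D.W y, ⁅u, e⁆ ∈ D.V y := fun e he => by
    have h1 := D.comm_W_one hC hb (by omega) (one_mem _) hu huP he
    rw [one_mul, inv_one, mul_one] at h1
    exact D.center_mem hI hI1 (D.comm_le hI h1).1 (D.comm_le hI h1).2
  have hW'W : W' ≤ D.W y := sup_le
    (le_trans (D.V_le_U hI1) (D.U_le_W hI1)) (iSup_le hWiWv)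
  have hval : ∀ i, ∀ e ∈ W', ⁅ui i, e⁆ ∈ D.V y := fun i e he => by
    have h1 := D.normV _ (hg _ (hrep i)) _
      (hval0 _ (D.W_conj ((D.Gv y).inv_mem (hg _ (hrep i))) (hW'W he)))
    simpa [ui, commutatorElement_def, mul_assoc] using h1
  let ψ : ι → (↥W' →* ↥(D.V y)) := fun i =>
    MonoidHom.mk' (fun e => ⟨⁅ui i, (e : X)⁆, hval i e e.2⟩) fun e f => Subtype.ext (by
      show ⁅ui i, (e : X) * f⁆ = ⁅ui i, (e : X)⁆ * ⁅ui i, (f : X)⁆
      have e1 : ⁅ui i, (e : X) * f⁆ = ⁅ui i, (e : X)⁆ * ((e : X) * ⁅ui i, (f : X)⁆ * (e : X)⁻¹) := by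
        simp [commutatorElement_def, mul_assoc]
      rw [e1, hWcomm _ e.2 _ (hVW (hval i f f.2)), mul_inv_cancel_right])
  have hkill : ∀ i j, i ≠ j → ∀ e ∈ Wi j, ⁅ui i, e⁆ = 1 := by
    intro i j hij e he
    set c := (rep i)⁻¹ * rep j with hc
    have hcA : c ∈ A := mul_mem (inv_mem (hrep i)) (hrep j)
    have hcQ : c ∉ D.Q y := fun h => hij (by
      rw [← Quotient.out_eq i, ← Quotient.out_eq j]
      exact QuotientGroup.eq.2 (Subgroup.mem_subgroupOf.2 ⟨hcA, h⟩))
    set h := g₀⁻¹ * c * g₀ with hh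
    have hhG : h ∈ D.Gv y := mul_mem (mul_mem (inv_mem hg₀) (hAG hcA)) hg₀
    have hne : D.M y (cj h P) ≠ D.M y P := by
      refine (D.gen_iff hI1 (D.I_conj hhG hI1)).1 ?_
      have h1 := (D.gen_iff hIs (D.I_conj (hAG hcA) hIs)).2 (D.M_cj_ne hI1 hIs hMs (hA.le hcA) hcQ).1
      have e1 : cj g₀⁻¹ (Ps ⊔ cj c Ps) = P ⊔ cj h P := by
        rw [hh, hPs, cj_mul (g₀⁻¹ * c) g₀, cj_mul g₀⁻¹ c]
        show Subgroup.map _ _ = _
        rw [Subgroup.map_sup]
        show cj g₀⁻¹ (cj g₀ P) ⊔ cj g₀⁻¹ (cj c (cj g₀ P)) = _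
        rw [cj_inv_cj]
      rw [← e1, h1]
      exact cj_eq_self fun a ha => mul_mem (mul_mem (inv_mem hg₀) ha) (by rw [inv_inv]; exact hg₀)
    have he' : (rep i * g₀)⁻¹ * e * (rep i * g₀) ∈ D.V (h • x₀) := by
      have h1 : (rep i * g₀)⁻¹ * e * (rep i * g₀) ∈ D.V ((rep i * g₀)⁻¹ • vx (rep j)) := by
        rw [D.smul_V]; simpa using conj_mem_cj (g := (rep i * g₀)⁻¹) he
      rwa [← mul_smul, show (rep i * g₀)⁻¹ * (rep j * g₀) = h by rw [hh, hc]; group] at h1
    have h1 := D.comm_eq_one_of_edge hp2 hb hno hC hu huP huQ (D.I_conj hhG hI1) hne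
      (D.smul_I h hI) he'
    have h2 : ⁅ui i, e⁆ = (rep i * g₀) * ⁅u, (rep i * g₀)⁻¹ * e * (rep i * g₀)⁆ * (rep i * g₀)⁻¹ := by
      simp [ui, commutatorElement_def, mul_assoc]
    rw [h2, h1, mul_one, mul_inv_cancel]
  have hψV : ∀ i (e : ↥W'), (e : X) ∈ D.V y → ψ i e = 1 := fun i e he =>
    Subtype.ext (commutator_eq_one_of (D.comm (ui i) (huiQ i) _ he))
  -- the images
  let R : ι → Subgroup ↥(D.V y) := fun i => ((Wi i).subgroupOf W').map (ψ i)
  set Cx := D.V x₀ ⊓ Subgroup.centralizer (P : Set X) with hCx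
  have hR : ∀ i, Nat.card (R i) * Nat.card Cx = Nat.card (D.V x₀) := fun i => by
    let θ : ↥(D.V x₀) →* ↥(D.V y) := (ψ i).comp
      { toFun := fun e => ⟨(rep i * g₀) * e * (rep i * g₀)⁻¹, hWiW i (by
          exact (D.smul_V _ _).ge (conj_mem_cj e.2))⟩
        map_one' := Subtype.ext (by simp)
        map_mul' := fun a c => Subtype.ext (by simp [mul_assoc]) }
    have hrange : θ.range = R i := by
      ext z
      constructor
      · rintro ⟨e, rfl⟩
        exact ⟨_, Subgroup.mem_subgroupOf.2 (by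
          show _ ∈ D.V ((rep i * g₀) • x₀)
          exact (D.smul_V _ _).ge (conj_mem_cj e.2)), rfl⟩
      · rintro ⟨e, he, rfl⟩
        have he' : (e : X) ∈ D.V ((rep i * g₀) • x₀) := Subgroup.mem_subgroupOf.1 he
        rw [D.smul_V, mem_cj] at he'
        refine ⟨⟨_, he'⟩, ?_⟩
        show ψ i _ = ψ i e
        exact congrArg (ψ i) (Subtype.ext (by simp [mul_assoc]))
    have hker : θ.ker = Cx.subgroupOf (D.V x₀) := by
      ext e
      have e1 : (θ e : X) = (rep i * g₀) * ⁅u, (e : X)⁆ * (rep i * g₀)⁻¹ := by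
        show ⁅ui i, (rep i * g₀) * (e : X) * (rep i * g₀)⁻¹⁆ = _
        simp [ui, commutatorElement_def, mul_assoc]
      rw [MonoidHom.mem_ker, Subgroup.mem_subgroupOf, ← Subtype.coe_injective.eq_iff, e1,
        OneMemClass.coe_one, mul_inv_eq_one, mul_eq_left, commutatorElement_eq_one_iff_mul_comm]
      exact ⟨fun h => ⟨e.2, D.fix_eq hI u huP huQ _ e.2 h⟩, fun h => h.2 u huP⟩
    rw [← hrange, ← Nat.card_congr (QuotientGroup.quotientKerEquivRange θ).toEquiv,
      show Nat.card Cx = Nat.card θ.ker by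
        rw [hker, Nat.card_congr (Subgroup.subgroupOfEquivOfLe inf_le_left).toEquiv],
      ← Subgroup.card_eq_card_quotient_mul_card_subgroup]
  have hψR : ∀ i (e : ↥W'), ψ i e ∈ R i := fun i => by
    have h1 : W' ≤ ((R i).comap (ψ i)).map W'.subtype := by
      refine sup_le (fun e he => ⟨⟨e, hVW he⟩, ?_, rfl⟩) (iSup_le fun j e he => ⟨⟨e, hWiW j he⟩, ?_, rfl⟩)
      · show ψ i ⟨e, hVW he⟩ ∈ R i
        rw [hψV i _ he]; exact one_mem _
      · show ψ i ⟨e, hWiW j he⟩ ∈ R i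
        by_cases hji : j = i
        · subst hji; exact ⟨_, Subgroup.mem_subgroupOf.2 he, rfl⟩
        · rw [show ψ i ⟨e, hWiW j he⟩ = 1 from Subtype.ext (hkill i j (Ne.symm hji) e he)]
          exact one_mem _
    intro e
    obtain ⟨e', he', hee⟩ := h1 e.2
    rw [← show e' = e from Subtype.ext hee]
    exact he'
  let Ψ : ↥W' →* (ι → ↥(D.V y)) := MonoidHom.mk' (fun e i => ψ i e) fun e f => funext fun i => map_mul _ _ _
  set i₀ : ι := QuotientGroup.mk 1
  set q := Nat.card (R i₀) with hq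
  have hRq : ∀ i, Nat.card (R i) = q := fun i =>
    Nat.eq_of_mul_eq_mul_right Nat.card_pos ((hR i).trans (hR i₀).symm)
  set e := Nat.card ι with he
  have hbig : q ^ e ≤ Nat.card Ψ.range := by
    have h1 : ∀ c : (i : ι) → ↥(R i), ∃ w : ↥W', ∀ i, ψ i w = c i := by
      intro c
      haveI := Fintype.ofFinite ι
      suffices ∀ s : Finset ι, ∃ w : ↥W', ∀ i, ψ i w = if i ∈ s then (c i : ↥(D.V y)) else 1 by
        obtain ⟨w, hw⟩ := this Finset.univ
        exact ⟨w, fun i => by simpa using hw i⟩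
      intro s
      induction s using Finset.induction_on with
      | empty => exact ⟨1, fun i => by simp⟩
      | insert j s hjs ih =>
        obtain ⟨w, hw⟩ := ih
        obtain ⟨d, hd, hdj⟩ := (c j).2
        refine ⟨d * w, fun i => ?_⟩
        rw [map_mul, hw]
        by_cases hij : i = j
        · subst hij; simp [hjs, hdj]
        · have : ψ i d = 1 := Subtype.ext (hkill i j hij _ (Subgroup.mem_subgroupOf.1 hd))
          simp [hij, this]
    choose w hw using h1
    calc q ^ e = Nat.card ((i : ι) → ↥(R i)) := by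
          haveI := Fintype.ofFinite ι
          rw [Nat.card_pi, Finset.prod_congr rfl fun i _ => hRq i, Finset.prod_const, Finset.card_univ,
            ← Nat.card_eq_fintype_card]
      _ ≤ Nat.card Ψ.range := Nat.card_le_card_of_injective (fun c => (⟨Ψ (w c), w c, rfl⟩ : Ψ.range))
          fun c d h => funext fun i => Subtype.ext (by
            have := congrFun (congrArg Subtype.val h) i
            simpa [Ψ, hw] using this)
  -- the fixed points of `A`
  set C : Subgroup ↥W' := (Subgroup.centralizer (A : Set X)).subgroupOf W' with hCdef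
  have hsmall : Nat.card (C.map Ψ) ≤ q := by
    refine Nat.card_le_card_of_injective
      (fun z => (⟨(z : ι → ↥(D.V y)) i₀, by obtain ⟨e', -, he'⟩ := z.2; rw [← he']; exact hψR i₀ e'⟩ : R i₀))
      ?_
    rintro ⟨_, ⟨c, hc, rfl⟩⟩ ⟨_, ⟨d, hd, rfl⟩⟩ h
    refine Subtype.ext (funext fun i => Subtype.ext ?_)
    have h0 : ⁅ui i₀, (c : X)⁆ = ⁅ui i₀, (d : X)⁆ := congrArg (fun z : R i₀ => ((z : ↥(D.V y)) : X)) h
    set t := rep i * (rep i₀)⁻¹
    have htA : t ∈ A := mul_mem (hrep i) (inv_mem (hrep i₀))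
    have key : ∀ z ∈ Subgroup.centralizer (A : Set X), ⁅ui i, z⁆ = t * ⁅ui i₀, z⁆ * t⁻¹ := fun z hz => by
      have e1 : ui i = t * ui i₀ * t⁻¹ := by simp [ui, t, mul_assoc]
      have e2 : t⁻¹ * z * t = z := by
        rw [mul_assoc, ← hz t htA, inv_mul_cancel_left]
      calc ⁅ui i, z⁆ = t * ⁅ui i₀, t⁻¹ * z * t⁆ * t⁻¹ := by
            rw [e1]; simp [commutatorElement_def, mul_assoc]
        _ = _ := by rw [e2]
    show ⁅ui i, (c : X)⁆ = ⁅ui i, (d : X)⁆
    rw [key _ (Subgroup.mem_subgroupOf.1 hc), key _ (Subgroup.mem_subgroupOf.1 hd), h0]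
  set Cy := D.V y ⊓ Subgroup.centralizer (P : Set X) with hCy
  obtain ⟨a₁, ha₁, ha₁Q⟩ := SetLike.not_le_iff_exists.1 hAQ
  have hCyA : D.V y ⊓ Subgroup.centralizer (A : Set X) ≤ Cy := fun z hz =>
    ⟨hz.1, D.fix_eq hI1 a₁ (hA.le ha₁) ha₁Q z hz.1 (hz.2 a₁ ha₁)⟩
  -- the kernel
  set K := Ψ.ker.map W'.subtype with hK
  set CX := W' ⊓ Subgroup.centralizer (A : Set X) with hCX
  have hCXeq : C.map W'.subtype = CX := by rw [hCdef, Subgroup.subgroupOf_map_subtype, inf_comm]
  have hVK : D.V y ≤ K := fun e he => ⟨⟨e, hVW he⟩, funext fun i => hψV i _ he, rfl⟩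
  have hkernel : Nat.card (D.V y) * Nat.card ↥(K ⊓ CX) ≤ Nat.card K * Nat.card Cy := by
    have h1 := card_mul_card_eq (D.V y) (K ⊓ CX) fun e he f hf =>
      hWcomm f hf.2.1 e (hVW he)
    rw [h1]
    refine Nat.mul_le_mul (Subgroup.card_le_of_le (sup_le hVK inf_le_left)) ?_
    exact Subgroup.card_le_of_le fun z hz => hCyA ⟨hz.1, hz.2.2.2⟩
  have hW'card : Nat.card Ψ.range * Nat.card K = Nat.card W' := by
    rw [hK, Subgroup.card_map_of_injective W'.subtype_injective,
      ← Nat.card_congr (QuotientGroup.quotientKerEquivRange Ψ).toEquiv,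
      ← Subgroup.card_eq_card_quotient_mul_card_subgroup]
  have hCcard : Nat.card CX ≤ q * Nat.card ↥(K ⊓ CX) := by
    rw [← hCXeq, Subgroup.card_map_of_injective W'.subtype_injective,
      Subgroup.card_eq_card_quotient_mul_card_subgroup (Ψ.comp C.subtype).ker,
      Nat.card_congr (QuotientGroup.quotientKerEquivRange _).toEquiv, MonoidHom.range_comp,
      Subgroup.range_subtype]
    refine Nat.mul_le_mul hsmall (le_of_eq ?_)
    rw [hK, ← Subgroup.map_inf_eq _ _ _ W'.subtype_injective, Subgroup.card_map_of_injective W'.subtype_injective,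
      ← MonoidHom.comap_ker, inf_comm]
    rw [← Subgroup.subgroupOf, ← Subgroup.inf_subgroupOf_left Ψ.ker C]
    exact Nat.card_congr (Subgroup.subgroupOfEquivOfLe inf_le_left).toEquiv
  -- the centralizer of `W'` in `A`
  set Dc := A ⊓ Subgroup.centralizer (W' : Set X) with hDc
  have hBA : B ≤ A := inf_le_left
  have hcardA : Nat.card A = e * Nat.card B := by
    rw [he, ← Nat.card_congr (Subgroup.subgroupOfEquivOfLe hBA).toEquiv]
    exact Subgroup.card_eq_card_quotient_mul_card_subgroup _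
  have hBD : B ⊓ D.Q xs ≤ Dc := by
    rintro r ⟨hrB, hrx⟩
    refine ⟨hrB.1, ?_⟩
    suffices W' ≤ Subgroup.centralizer ({r} : Set X) from fun z hz =>
      Subgroup.mem_centralizer_singleton_iff.1 (this hz)
    refine sup_le (fun z hz => Subgroup.mem_centralizer_singleton_iff.2 (D.comm r hrB.2 z hz).symm)
      (iSup_le fun i z hz => Subgroup.mem_centralizer_singleton_iff.2 ?_)
    have hz' : (rep i)⁻¹ * z * rep i ∈ D.V xs := by
      have h1 : (rep i)⁻¹ * z * rep i ∈ D.V ((rep i)⁻¹ • vx (rep i)) := by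
        rw [D.smul_V]; simpa using conj_mem_cj (g := (rep i)⁻¹) hz
      rwa [← mul_smul, inv_mul_cancel_left] at h1
    have h2 : Commute r ((rep i)⁻¹ * z * rep i) := D.comm r hrx _ hz'
    have h3 : Commute r (rep i) := ThompsonJ.isElementaryAbelian_comm hA.elem hrB.1 (hrep i)
    have h4 := (h3.mul_right h2).mul_right h3.inv_right
    simpa [mul_assoc] using h4.eq.symm
  have hB2 : Nat.card B * Nat.card Cx ≤ Nat.card Dc * Nat.card (D.V x₀) := by
    have hle : B ≤ Ps := fun r hr => D.Q_le hIs hr.2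
    have h1 := CfsgLib.ThompsonJ.card_sup_mul_card_inf B (D.Q xs) (D.IP_le_normalizer hIxs hle)
    have h2 := Subgroup.card_le_of_le (sup_le hle (D.Q_le hIxs))
    have h3 := D.card_V hI
    have h4 : Nat.card (D.Q xs) = Nat.card (D.Q x₀) := by rw [hxs, D.smul_Q, card_cj]
    have h5 : Nat.card Ps = Nat.card P := card_cj g₀ P
    refine Nat.le_of_mul_le_mul_right ?_ (Nat.card_pos (α := ↥(D.Q x₀)))
    calc Nat.card B * Nat.card Cx * Nat.card (D.Q x₀)
        = Nat.card ↥(B ⊔ D.Q xs) * Nat.card ↥(B ⊓ D.Q xs) * Nat.card Cx := by rw [h1, h4]; ring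
      _ ≤ Nat.card P * Nat.card Dc * Nat.card Cx :=
          Nat.mul_le_mul_right _ (Nat.mul_le_mul (h2.trans h5.le) (Subgroup.card_le_of_le hBD))
      _ = Nat.card Dc * Nat.card (D.V x₀) * Nat.card (D.Q x₀) := by
          rw [mul_assoc (Nat.card Dc), h3]; ring
  -- the exponent and the comparison
  have hW'el : Cfsg.IsElementaryAbelian p W' := by
    refine ⟨inferInstance, fun z hz => D.pow_W2 (x := x₀) hb ?_⟩
    exact D.W_le_W2 hI hI1 (hW'W hz)
  have hsup : Nat.card W' * Nat.card Dc ≤ Nat.card A * Nat.card CX := by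
    have hcom : W' ≤ Subgroup.centralizer (Dc : Set X) := fun z hz c hc => (hc.2 z hz).symm
    rw [card_mul_card_eq W' Dc hcom]
    refine Nat.mul_le_mul (hA.card_le _ (sup_le (hW'Q.trans (D.Q_le hI1)) (inf_le_left.trans hA.le))
      (ThompsonJ.isElementaryAbelian_sup hW'el (ThompsonJ.isElementaryAbelian_mono hA.elem inf_le_left) hcom))
      (Subgroup.card_le_of_le fun z hz => ⟨hz.1, fun a ha =>
        ThompsonJ.isElementaryAbelian_comm hA.elem ha hz.2.1⟩)
  have hey : e * Nat.card Cy ≤ Nat.card (D.V y) := by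
    have h1 := CfsgLib.ThompsonJ.card_sup_mul_card_inf A (D.Q y) (D.IP_le_normalizer hI1 hA.le)
    have h2 := Subgroup.card_le_of_le (sup_le hA.le (D.Q_le hI1))
    refine Nat.le_of_mul_le_mul_right ?_ (Nat.card_pos (α := ↥(D.Q y)))
    rw [D.card_V hI1]
    refine Nat.le_of_mul_le_mul_right ?_ (Nat.card_pos (α := ↥B))
    calc e * Nat.card Cy * Nat.card (D.Q y) * Nat.card B
        = Nat.card ↥(A ⊔ D.Q y) * Nat.card ↥(A ⊓ D.Q y) * Nat.card Cy := by rw [h1, hcardA]; ring
      _ ≤ Nat.card P * Nat.card ↥(A ⊓ D.Q y) * Nat.card Cy :=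
          Nat.mul_le_mul_right _ (Nat.mul_le_mul_right _ h2)
      _ = _ := by rw [← hB]; ring
  have hB3 : Nat.card B ≤ q * Nat.card Dc := by
    refine Nat.le_of_mul_le_mul_right ?_ (Nat.card_pos (α := ↥Cx))
    refine hB2.trans (le_of_eq ?_)
    rw [← hR i₀]; ring
  have hmain : q ^ e * Nat.card (D.V y) * (Nat.card CX * Nat.card Dc) ≤
      q * q * (e * Nat.card Cy) * (Nat.card CX * Nat.card Dc) := by
    calc q ^ e * Nat.card (D.V y) * (Nat.card CX * Nat.card Dc)
        ≤ Nat.card Ψ.range * Nat.card (D.V y) * ((q * Nat.card ↥(K ⊓ CX)) * Nat.card Dc) :=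
          Nat.mul_le_mul (Nat.mul_le_mul_right _ hbig) (Nat.mul_le_mul_right _ hCcard)
      _ = q * Nat.card Dc * Nat.card Ψ.range * (Nat.card (D.V y) * Nat.card ↥(K ⊓ CX)) := by ring
      _ ≤ q * Nat.card Dc * Nat.card Ψ.range * (Nat.card K * Nat.card Cy) := Nat.mul_le_mul_left _ hkernel
      _ = q * Nat.card Cy * (Nat.card W' * Nat.card Dc) := by rw [← hW'card]; ring
      _ ≤ q * Nat.card Cy * (Nat.card A * Nat.card CX) := Nat.mul_le_mul_left _ hsup
      _ ≤ q * Nat.card Cy * (e * (q * Nat.card Dc) * Nat.card CX) := by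
          rw [hcardA]; exact Nat.mul_le_mul_left _ (Nat.mul_le_mul_right _ (Nat.mul_le_mul_left _ hB3))
      _ = _ := by ring
  have h0 : 0 < Nat.card CX * Nat.card Dc := Nat.mul_pos Nat.card_pos Nat.card_pos
  have h1 := (Nat.le_of_mul_le_mul_right hmain h0).trans (Nat.mul_le_mul_left (q * q) hey)
  have h2 : q ^ e ≤ q ^ 2 := by rw [sq]; exact Nat.le_of_mul_le_mul_right h1 Nat.card_pos
  -- `q` and `e`
  have hq1 : 1 < q := by
    refine Finite.one_lt_card_iff_nontrivial.2 ((Subgroup.nontrivial_iff_ne_bot _).2 fun hbot => ?_)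
    have h3 := hR i₀
    rw [hbot, Subgroup.card_bot, one_mul] at h3
    have h4 : Cx = D.V x₀ := Subgroup.eq_of_le_of_card_ge inf_le_left h3.ge
    exact huQ (D.cent hI u huP fun z hz => (h4.ge hz).2 u huP)
  have he3 : 2 < e := by
    obtain ⟨n, hn⟩ := ((D.pgroup hI1).to_le hA.le).index (B.subgroupOf A)
    have hen : e = p ^ n := hn
    have hn0 : n ≠ 0 := fun h0 => hAQ (by
      rw [h0, pow_zero, Subgroup.index_eq_one, Subgroup.subgroupOf_eq_top] at hn
      exact hn.trans inf_le_right)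
    have hp3 : 3 ≤ p := lt_of_le_of_ne hp.out.two_le (Ne.symm hp2)
    rw [hen]
    exact lt_of_lt_of_le hp3 (Nat.le_self_pow hn0 p)
  exact absurd ((Nat.pow_le_pow_iff_right hq1).1 h2) (by omega)

include D in
/-- There is no such configuration. -/
theorem false_of_bad (hp2 : p ≠ 2) : False := by
  rcases Nat.lt_or_ge D.b 3 with h | h
  · rcases (show D.b = 1 ∨ D.b = 2 by have := D.one_le_b; omega) with hb | hb
    · exact D.false_of_b_eq_one hb
    · exact D.false_of_b_eq_two hb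
  · have hall : ∀ k, ∃ v Pc, D.Chain (D.b + k) k v Pc := by
      intro k
      induction k with
      | zero => exact D.exists_chain_zero
      | succ k ih =>
        by_contra hno
        obtain ⟨v, Pc, hC⟩ := ih
        rcases Nat.lt_or_ge D.b 5 with h5 | h5
        · exact D.false_of_fail_of_le hC h (by omega) (D.extend_or_fail (by omega) hno hC) (by omega)
        · exact D.false_of_fail hp2 h5 hno hC
    obtain ⟨v, Pc, hC⟩ := hall (2 * D.b + 1)
    exact D.false_of_chain h ⟨fun i hi => hC.left i (by omega), fun i hi => hC.right i (by omega),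
      fun i hi => hC.crit i (by omega), fun i hi hiL => hC.gen i (by omega) hiL⟩

end Sys

end CfsgLib.PushUp.CommonCore
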