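import Cfsg.Agent.Lib.PushUp.CommonCore.Chain

/-!
Pushing up with several types of vertices: quadratic action of the far end of a critical walk, and the
consequences of a failing shift.
-/

set_option autoImplicit false
set_option linter.style.haveILetI false
set_option linter.unusedSectionVars false

namespace CfsgLib.PushUp.CommonCore

open scoped commutatorElement
open CfsgLib.PushUp.RankOne (cj mem_cj conj_mem_cj cj_one cj_mul cj_inv_cj cj_cj_inv cj_mono card_cj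
  cj_eq_self cj_eq_self_of_mem exists_mul_of_mem_sup le_normalizer_of_conj commutator_eq_one_of)

variable {X : Type*} [Group X] {p : ℕ} {Γ : Type*} [MulAction X Γ]

namespace Sys

variable (D : Sys p X Γ) [Finite X] [hp : Fact p.Prime] {x y z : Γ} {P P' : Subgroup X}
variable {L m : ℕ} {v : ℕ → Γ} {Pc : ℕ → Subgroup X}

/-- Commutators with the far end of a critical walk lie in the line of the first edge. -/
theorem Chain.comm_univ (hC : D.Chain L m v Pc) (hL : D.b ≤ L) {w : Γ}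
    (hw : D.Near (D.b - 1) w (v (D.b - 1))) {u a : X} (hu : u ∈ D.V (v D.b)) (ha : a ∈ D.V w) :
    ⁅u, a⁆ ∈ ⁅D.V (v 0), Pc 0⁆ := by
  have hb := D.one_le_b
  have hcr := hC.crit' D (i := 0) (by omega)
  simp only [Nat.zero_add] at hcr
  have haP : a ∈ Pc (D.b - 1) := D.le_edge (by omega) hw (hC.left _ (by omega)) ha
  have h1 : ⁅u, a⁆ ∈ ⁅D.V (v D.b), Pc (D.b - 1)⁆ := Subgroup.commutator_mem_commutator hu haP
  rw [hcr.symm.comm_eq D, Subgroup.commutator_comm] at h1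
  exact Subgroup.commutator_mono le_rfl hcr.mem_first h1

theorem Chain.fix_mem (hC : D.Chain L m v Pc) {k i : ℕ} {w : Γ} {e : X} (he : e ∈ D.V w)
    (hk : k < D.b) (h : D.Near k w (v i)) (hi : i < L) : e ∈ D.Gv (v (i + 1)) :=
  D.le_G (hC.right i hi) (D.le_edge hk h (hC.left i hi) he)

theorem Chain.near_smul (hC : D.Chain L m v Pc) {k : ℕ} (hk : k ≤ D.b - 1) (hL : D.b ≤ L)
    (hk2 : D.b ≤ 2 * k) {s : X} (hs : s ∈ D.Gv (v k)) :
    D.Near (D.b - 1) (s • v D.b) (v (D.b - 1)) := by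
  have h1 := D.smul_near s (hC.near D (i := k) (j := D.b) (by omega) hL)
  rw [D.fixes hs] at h1
  exact D.near_mono (by omega)
    (D.near_add (D.near_symm h1) (hC.near D (i := k) (j := D.b - 1) hk (by omega)))

theorem Chain.quad (hC : D.Chain L m v Pc) {k : ℕ} (hk : k ≤ D.b - 1) (hL : D.b ≤ L)
    (hk2 : D.b ≤ 2 * k) {s u : X} (hs : s ∈ D.Gv (v k)) (hu : u ∈ D.V (v D.b)) :
    ⁅⁅s, u⁆, u⁆ ∈ ⁅D.V (v 0), Pc 0⁆ := by
  have hu' : s * u * s⁻¹ ∈ D.V (s • v D.b) := by rw [D.smul_V]; exact conj_mem_cj hu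
  have h1 := hC.comm_univ D hL (hC.near_smul D hk hL hk2 hs) hu hu'
  have e : ⁅⁅s, u⁆, u⁆ = ⁅u, s * u * s⁻¹⁆⁻¹ := by simp [commutatorElement_def, mul_assoc]
  rw [e]; exact inv_mem h1

theorem Chain.comm_le_V (hC : D.Chain L m v Pc) (hL : 1 ≤ L) :
    ⁅D.V (v 0), Pc 0⁆ ≤ D.V (v 0) := (D.comm_le (hC.left 0 hL)).trans inf_le_left

theorem Chain.exists_moving (hC : D.Chain L m v Pc) (hL : D.b ≤ L) :
    ∃ u ∈ D.V (v D.b), u ∈ Pc 0 ∧ u ∉ D.Q (v 0) := by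
  have hcr := hC.crit' D (i := 0) (by omega)
  simp only [Nat.zero_add] at hcr
  obtain ⟨u, hu, huQ⟩ := SetLike.not_le_iff_exists.1 hcr.not_le'
  exact ⟨u, hu, hcr.mem_first hu, huQ⟩

theorem exists_chain_zero : ∃ v Pc, D.Chain D.b 0 v Pc := by
  obtain ⟨x, y, h, hV⟩ := D.exists_crit
  obtain ⟨v, Pc, h0, hk, hl, hr⟩ := D.exists_path h
  refine ⟨v, Pc, hl, hr, fun i hi => ?_, fun i _ hi => absurd hi (by omega)⟩
  obtain rfl : i = 0 := by omega
  rwa [h0, Nat.zero_add, hk]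

theorem false_of_b_eq_one (hb : D.b = 1) : False := by
  obtain ⟨v, Pc, hC⟩ := D.exists_chain_zero
  obtain ⟨u, hu, huP, huQ⟩ := hC.exists_moving D le_rfl
  have hI := hC.left 0 (by omega)
  have key : ∀ s ∈ D.Q (v 0), ⁅⁅s, u⁆, u⁆ = 1 := fun s hs => by
    have hI' : D.I (v D.b) (Pc 0) := by rw [hb]; exact hC.right 0 (by omega)
    have h1 : ⁅s, u⁆ ∈ D.V (v D.b) :=
      (D.V (v D.b)).mul_mem (D.normV s (D.le_G hI' (D.Q_le hI hs)) u hu) ((D.V (v D.b)).inv_mem hu)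
    exact commutator_eq_one_of (D.commV h1 hu)
  exact D.bad hI u huP huQ (D.Q (v 0)) le_rfl D.normQ (fun s hs => by rw [key s hs]; exact one_mem _)
    fun s hs => by rw [key s hs]; exact one_mem _

theorem false_of_b_eq_two (hb : D.b = 2) : False := by
  obtain ⟨v, Pc, hC⟩ := D.exists_chain_zero
  obtain ⟨u, hu, huP, huQ⟩ := hC.exists_moving D le_rfl
  have hI := hC.left 0 (by omega)
  have key : ∀ s ∈ D.Q (v 0), ⁅⁅s, u⁆, u⁆ ∈ D.V (v 0) := fun s hs =>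
    hC.comm_le_V D (by omega) (hC.quad D (k := 1) (by omega) le_rfl (by omega)
      (D.le_G (hC.right 0 (by omega)) (D.Q_le hI hs)) hu)
  exact D.bad hI u huP huQ (D.Q (v 0)) le_rfl D.normQ (fun s hs => D.V_le _ (key s hs)) key

section Fail

variable (hC : D.Chain L m v Pc) (hb : 3 ≤ D.b) (hL : D.b ≤ L) (hF : D.Fail v Pc)
include hC hb hL hF

/-- `G` centralizes `U / V`. -/
theorem comm_U_le {g t : X} (hg : g ∈ D.Gv (v 0)) (ht : t ∈ D.U (Pc 0)) : ⁅g, t⁆ ∈ D.V (v 0) := by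
  have hI := hC.left 0 (by omega)
  have hUP : D.U (Pc 0) ≤ Pc 0 := iSup₂_le fun w hw => (D.V_le w).trans (D.Q_le hw)
  have hP : ∀ g ∈ Pc 0, ∀ t ∈ D.U (Pc 0), ⁅g, t⁆ ∈ D.V (v 0) := fun g hg => by
    let K : Subgroup X :=
      { carrier := {t | t ∈ D.U (Pc 0) ∧ ⁅g, t⁆ ∈ D.V (v 0)}
        one_mem' := ⟨one_mem _, by simp⟩
        mul_mem' := fun {a c} ha hc => ⟨mul_mem ha.1 hc.1, by
          have e : ⁅g, a * c⁆ = ⁅g, a⁆ * (a * ⁅g, c⁆ * a⁻¹) := by simp [commutatorElement_def, mul_assoc]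
          rw [e]; exact mul_mem ha.2 (D.normV a (D.le_G hI (hUP ha.1)) _ hc.2)⟩
        inv_mem' := fun {a} ha => ⟨inv_mem ha.1, by
          have e : ⁅g, a⁻¹⁆ = a⁻¹ * ⁅g, a⁆⁻¹ * a⁻¹⁻¹ := by simp [commutatorElement_def, mul_assoc]
          rw [e]; exact D.normV _ (D.le_G hI (hUP (inv_mem ha.1))) _ (inv_mem ha.2)⟩ }
    suffices D.U (Pc 0) ≤ K from fun t ht => (this ht).2
    refine iSup₂_le fun w hw a ha => ⟨D.V_le_U hw ha, ?_⟩
    have h1 : ⁅g, a⁆ ∈ ⁅D.V w, Pc 0⁆ := by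
      rw [Subgroup.commutator_comm]; exact Subgroup.commutator_mem_commutator hg ha
    exact D.center_mem hw hI (D.comm_le hw h1).1 (D.comm_le hw h1).2
  let K : Subgroup X :=
    { carrier := {g | g ∈ D.Gv (v 0) ∧ ∀ t ∈ D.U (Pc 0), ⁅g, t⁆ ∈ D.V (v 0)}
      one_mem' := ⟨one_mem _, fun t _ => by simp⟩
      mul_mem' := fun {a c} ha hc => ⟨mul_mem ha.1 hc.1, fun t ht => by
        have e : ⁅a * c, t⁆ = a * ⁅c, t⁆ * a⁻¹ * ⁅a, t⁆ := by simp [commutatorElement_def, mul_assoc]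
        rw [e]; exact mul_mem (D.normV a ha.1 _ (hc.2 t ht)) (ha.2 t ht)⟩
      inv_mem' := fun {a} ha => ⟨inv_mem ha.1, fun t ht => by
        have e : ⁅a⁻¹, t⁆ = a⁻¹ * ⁅a, t⁆⁻¹ * a⁻¹⁻¹ := by simp [commutatorElement_def, mul_assoc]
        rw [e]; exact D.normV _ (inv_mem ha.1) _ (inv_mem (ha.2 t ht))⟩ }
  have hPK : Pc 0 ≤ K := fun a ha => ⟨D.le_G hI ha, hP a ha⟩
  obtain ⟨c, hc, hcM⟩ := D.exists_not_mem hI
  have hcK : cj c (Pc 0) ≤ K := by
    rintro _ ⟨a, ha, rfl⟩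
    refine ⟨D.le_G (D.I_conj hc hI) (conj_mem_cj ha), fun t ht => ?_⟩
    have h1 := hP a ha _ (hF c⁻¹ ((D.Gv (v 0)).inv_mem hc) t ht)
    have h2 := D.normV c hc _ h1
    simpa [commutatorElement_def, mul_assoc] using h2
  exact ((D.sup_cj_eq hI hc hcM).ge.trans (sup_le hPK hcK) hg).2 t ht

/-- The far end fixes the second vertex. -/
theorem mem_Q_one {u : X} (hu : u ∈ D.V (v D.b)) : u ∈ D.Q (v 1) :=
  D.le_Q (k := D.b - 1) (by omega) (D.near_symm (hC.near D (i := 1) (j := D.b) (by omega) hL)) hu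

theorem mem_R_iff {s : X} :
    s ∈ D.Q (v 0) ⊓ D.Q (v 1) ↔ s ∈ D.Q (v 0) ∧ ∀ a ∈ D.V (v 1), s * a = a * s :=
  ⟨fun h => ⟨h.1, fun a ha => D.comm s h.2 a ha⟩, fun h =>
    ⟨h.1, D.cent (hC.right 0 (by omega)) s (D.Q_le (hC.left 0 (by omega)) h.1) h.2⟩⟩

theorem R_normal {g s : X} (hg : g ∈ D.Gv (v 0)) (hs : s ∈ D.Q (v 0) ⊓ D.Q (v 1)) :
    g * s * g⁻¹ ∈ D.Q (v 0) ⊓ D.Q (v 1) := by
  rw [D.mem_R_iff hC hb hL hF] at hs ⊢
  refine ⟨D.normQ g hg s hs.1, fun a ha => ?_⟩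
  have h1 := D.comm_U_le hC hb hL hF ((D.Gv (v 0)).inv_mem hg) (D.V_le_U (hC.right 0 (by omega)) ha)
  have h2 : Commute s (g⁻¹ * a * g) := by
    have e : g⁻¹ * a * g = ⁅g⁻¹, a⁆ * a := by simp [commutatorElement_def, mul_assoc]
    rw [e]
    exact Commute.mul_right (D.comm s hs.1 _ h1) (hs.2 a ha)
  have h3 := congrArg (fun t => g * t * g⁻¹) h2.eq
  simpa [mul_assoc] using h3

theorem comm_mem_R {s u : X} (hs : s ∈ D.Q (v 0)) (hu : u ∈ D.V (v D.b)) (huP : u ∈ Pc 0) :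
    ⁅s, u⁆ ∈ D.Q (v 0) ⊓ D.Q (v 1) := by
  have hI := hC.left 0 (by omega)
  rw [D.mem_R_iff hC hb hL hF]
  refine ⟨?_, fun a ha => ?_⟩
  · have h1 := D.normQ u (D.le_G hI huP) s⁻¹ ((D.Q (v 0)).inv_mem hs)
    simpa [commutatorElement_def, mul_assoc] using (D.Q (v 0)).mul_mem hs h1
  · have hu1 := D.mem_Q_one hC hb hL hF hu
    have hsP := D.Q_le hI hs
    have hI1 := hC.right 0 (by omega)
    have h1 : Commute u (s⁻¹ * a * s) := D.comm u hu1 _ (by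
      simpa using D.normV s⁻¹ ((D.Gv (v 1)).inv_mem (D.le_G hI1 hsP)) a ha)
    have h2 := congrArg (fun t => s * t * s⁻¹) h1.eq
    have h3 : Commute (s * u * s⁻¹) a := by
      show s * u * s⁻¹ * a = a * (s * u * s⁻¹)
      simpa [mul_assoc] using h2
    exact (h3.mul_left (Commute.inv_left (D.comm u hu1 a ha)))

/-- A failing shift is impossible for `b ≤ 4`. -/
theorem false_of_fail_of_le (hb4 : D.b ≤ 4) : False := by
  obtain ⟨u, hu, huP, huQ⟩ := hC.exists_moving D hL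
  have hI := hC.left 0 (by omega)
  refine D.bad hI u huP huQ (D.Q (v 0) ⊓ D.Q (v 1)) inf_le_left
    (fun g hg s hs => D.R_normal hC hb hL hF hg hs) (fun s hs => ?_) fun s hs => ?_
  · have h1 := D.comm_mem_R hC hb hL hF hs hu huP
    have h2 := D.R_normal hC hb hL hF (D.le_G hI huP) ((D.Q (v 0) ⊓ D.Q (v 1)).inv_mem h1)
    simpa [commutatorElement_def, mul_assoc] using (D.Q (v 0) ⊓ D.Q (v 1)).mul_mem h1 h2
  · exact hC.comm_le_V D (by omega) (hC.quad D (k := 2) (by omega) hL (by omega)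
      (D.le_G (hC.right 1 (by omega)) (D.Q_le (hC.left 1 (by omega)) hs.2)) hu)

end Fail

end Sys

end CfsgLib.PushUp.CommonCore
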