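import Cfsg.Agent.Lib.PushUp.RankOne.Graph
import Cfsg.Agent.Lib.ThompsonJ.Basic

/-!
Pushing up with several types of vertices over one Sylow subgroup: axioms and first consequences.
-/

set_option autoImplicit false
set_option linter.style.haveILetI false
set_option linter.unusedSectionVars false

namespace CfsgLib.PushUp.CommonCore

open scoped commutatorElement
open CfsgLib.PushUp.RankOne (cj mem_cj conj_mem_cj cj_one cj_mul cj_inv_cj cj_cj_inv cj_mono card_cj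
  cj_eq_self cj_eq_self_of_mem exists_mul_of_mem_sup le_normalizer_of_conj commutator_eq_one_of)

variable {X : Type*} [Group X]

/-- The axioms. -/
structure Sys (p : ℕ) (X : Type*) [Group X] (Γ : Type*) [MulAction X Γ] where
  Gv : Γ → Subgroup X
  Q : Γ → Subgroup X
  V : Γ → Subgroup X
  I : Γ → Subgroup X → Prop
  base : Γ
  smul_I : ∀ (g : X) {x : Γ} {P : Subgroup X}, I x P → I (g • x) (cj g P)
  smul_Gv : ∀ (g : X) (x : Γ), Gv (g • x) = cj g (Gv x)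
  smul_Q : ∀ (g : X) (x : Γ), Q (g • x) = cj g (Q x)
  smul_V : ∀ (g : X) (x : Γ), V (g • x) = cj g (V x)
  fixes : ∀ {g : X} {x : Γ}, g ∈ Gv x → g • x = x
  exists_I : ∀ x, ∃ P, I x P
  conj_I : ∀ {x P P'}, I x P → I x P' → ∃ g ∈ Gv x, P' = cj g P
  le_G : ∀ {x P}, I x P → P ≤ Gv x
  Q_le : ∀ {x P}, I x P → Q x ≤ P
  V_le : ∀ x, V x ≤ Q x
  normQ : ∀ {x}, ∀ g ∈ Gv x, ∀ a ∈ Q x, g * a * g⁻¹ ∈ Q x
  normV : ∀ {x}, ∀ g ∈ Gv x, ∀ a ∈ V x, g * a * g⁻¹ ∈ V x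
  comm : ∀ {x}, ∀ a ∈ Q x, ∀ v ∈ V x, a * v = v * a
  powV : ∀ {x}, ∀ v ∈ V x, v ^ p = 1
  pgroup : ∀ {x P}, I x P → IsPGroup p P
  exists_ge : ∀ {x} (H : Subgroup X), H ≤ Gv x → IsPGroup p H → ∃ P, I x P ∧ H ≤ P
  ne_Q : ∀ {x P}, I x P → ∃ g ∈ P, g ∉ Q x
  cent : ∀ {x P}, I x P → ∀ g ∈ P, (∀ v ∈ V x, g * v = v * g) → g ∈ Q x
  center_le : ∀ {x P}, I x P → ∀ z ∈ P, (∀ g ∈ P, g * z = z * g) → z ^ p = 1 → z ∈ V x
  max : ∀ {x P}, I x P → ∃ M : Subgroup X, P ≤ M ∧ M < Gv x ∧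
    (∀ H : Subgroup X, P ≤ H → H ≤ Gv x → H ≠ Gv x → H ≤ M) ∧
    (∀ g ∈ Gv x, ∀ z ∈ P, z ∉ Q x → g * z * g⁻¹ ∈ P → g ∈ M) ∧
    (∀ g ∈ Gv x, (∀ v ∈ V x, g * v = v * g) → g ∈ M)
  card_V : ∀ {x P}, I x P →
    Nat.card (V x) * Nat.card (Q x) = Nat.card P * Nat.card ↥(V x ⊓ Subgroup.centralizer (P : Set X))
  fix_eq : ∀ {x P}, I x P → ∀ g ∈ P, g ∉ Q x → ∀ v ∈ V x, g * v = v * g →
    v ∈ Subgroup.centralizer (P : Set X)
  comm_le : ∀ {x P}, I x P → ⁅V x, P⁆ ≤ V x ⊓ Subgroup.centralizer (P : Set X)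
  line : ∀ {x P}, I x P → ⁅V x, P⁆ ⊓ Subgroup.centralizer (Gv x : Set X) = ⊥
  offender : ∀ {x P}, I x P → ∃ A, CfsgLib.ThompsonJ.IsMaxEA p P A ∧ ¬ A ≤ Q x
  bad : ∀ {x P}, I x P → ∀ u ∈ P, u ∉ Q x → ∀ R : Subgroup X, R ≤ Q x →
    (∀ g ∈ Gv x, ∀ a ∈ R, g * a * g⁻¹ ∈ R) → (∀ s ∈ Q x, ⁅⁅s, u⁆, u⁆ ∈ R) →
    (∀ s ∈ R, ⁅⁅s, u⁆, u⁆ ∈ V x) → False
  core : ∀ {x P}, I x P → ∀ T : Subgroup X, T ≤ P →
    (∀ y, I y P → ∀ g ∈ Gv y, ∀ t ∈ T, g * t * g⁻¹ ∈ T) →
    (∀ g, cj g P = P → ∀ t ∈ T, g * t * g⁻¹ ∈ T) → T = ⊥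

namespace Sys

variable {p : ℕ} {Γ : Type*} [MulAction X Γ] (D : Sys p X Γ) {x y z : Γ} {P P' : Subgroup X}
/-- The maximal subgroup over an edge. -/
noncomputable def M (x : Γ) (P : Subgroup X) : Subgroup X := by
  classical exact if h : D.I x P then (D.max h).choose else ⊥

theorem M_spec (h : D.I x P) : P ≤ D.M x P ∧ D.M x P < D.Gv x ∧
    (∀ H : Subgroup X, P ≤ H → H ≤ D.Gv x → H ≠ D.Gv x → H ≤ D.M x P) ∧
    (∀ g ∈ D.Gv x, ∀ z ∈ P, z ∉ D.Q x → g * z * g⁻¹ ∈ P → g ∈ D.M x P) ∧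
    (∀ g ∈ D.Gv x, (∀ v ∈ D.V x, g * v = v * g) → g ∈ D.M x P) := by
  rw [M, dif_pos h]; exact (D.max h).choose_spec

theorem M_le (h : D.I x P) : D.M x P ≤ D.Gv x := (D.M_spec h).2.1.le

theorem exists_not_mem (h : D.I x P) : ∃ g ∈ D.Gv x, g ∉ D.M x P :=
  SetLike.not_le_iff_exists.1 fun hle => (D.M_spec h).2.1.not_ge hle

theorem Q_le_G (x : Γ) : D.Q x ≤ D.Gv x := by
  obtain ⟨P, hP⟩ := D.exists_I x; exact (D.Q_le hP).trans (D.le_G hP)

theorem V_le_G (x : Γ) : D.V x ≤ D.Gv x := (D.V_le x).trans (D.Q_le_G x)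

theorem commV {a b : X} (ha : a ∈ D.V x) (hb : b ∈ D.V x) : a * b = b * a :=
  D.comm a (D.V_le x ha) b hb

variable [Finite X]

theorem cjQ {g : X} (hg : g ∈ D.Gv x) : cj g (D.Q x) = D.Q x := cj_eq_self (D.normQ g hg)

omit [Finite X] in
theorem I_conj {g : X} (hg : g ∈ D.Gv x) (h : D.I x P) : D.I x (cj g P) := by
  have := D.smul_I g h; rwa [D.fixes hg] at this

theorem card_eq (h : D.I x P) (h' : D.I x P') : Nat.card P' = Nat.card P := by
  obtain ⟨g, -, rfl⟩ := D.conj_I h h'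
  exact card_cj g P

theorem V_ne_bot (x : Γ) : D.V x ≠ ⊥ := fun e => by
  obtain ⟨P, hP⟩ := D.exists_I x
  obtain ⟨g, hg, hgQ⟩ := D.ne_Q hP
  refine hgQ (D.cent hP g hg fun v hv => ?_)
  rw [e, Subgroup.mem_bot] at hv; simp [hv]

variable [hp : Fact p.Prime]

/-- A `p`-subgroup of `M` is conjugate in `M` into `P`. -/
theorem conj_into (h : D.I x P) {H : Subgroup X} (hH : H ≤ D.M x P) (hHp : IsPGroup p H) :
    ∃ m ∈ D.M x P, ∀ z ∈ H, m * z * m⁻¹ ∈ P := by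
  set M := D.M x P
  have hPM : P ≤ M := (D.M_spec h).1
  let S : Sylow p M :=
    { toSubgroup := P.subgroupOf M
      isPGroup' := (D.pgroup h).of_equiv (Subgroup.subgroupOfEquivOfLe hPM).symm
      is_maximal' := fun {K} hK hle => by
        obtain ⟨P', hP', hKP'⟩ := D.exists_ge (K.map M.subtype)
          ((Subgroup.map_subtype_le K).trans (D.M_le h)) (hK.map _)
        have h1 : P ≤ K.map M.subtype := fun z hz => ⟨⟨z, hPM hz⟩, hle hz, rfl⟩
        have h2 : P = P' := Subgroup.eq_of_le_of_card_ge (h1.trans hKP')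
          (D.card_eq h hP').le
        refine le_antisymm (fun k hk => ?_) hle
        show (k : X) ∈ P
        rw [h2]; exact hKP' ⟨k, hk, rfl⟩ }
  obtain ⟨S', hS'⟩ := (hHp.of_equiv (Subgroup.subgroupOfEquivOfLe hH).symm).exists_le_sylow
  obtain ⟨m, hm⟩ := MulAction.exists_smul_eq M S' S
  refine ⟨m, m.2, fun z hz => ?_⟩
  have h1 : m * (⟨z, hH hz⟩ : M) * m⁻¹ ∈ ((m • S' : Sylow p M) : Subgroup M) := by
    rw [Sylow.coe_subgroup_smul]
    exact ⟨_, hS' (Subgroup.mem_subgroupOf.2 hz : (⟨z, hH hz⟩ : M) ∈ H.subgroupOf M), by simp⟩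
  rw [hm] at h1
  exact h1

theorem mem_M_of_conj (h : D.I x P) {g z : X} (hg : g ∈ D.Gv x) (hz : z ∈ P) (hzQ : z ∉ D.Q x)
    (hgz : g * z * g⁻¹ ∈ D.M x P) : g ∈ D.M x P := by
  obtain ⟨-, -, -, hti, -⟩ := D.M_spec h
  have hzp : IsPGroup p (Subgroup.zpowers (g * z * g⁻¹)) :=
    ((D.pgroup h).map (MulAut.conj g).toMonoidHom).to_le (Subgroup.zpowers_le.2 (conj_mem_cj hz))
  obtain ⟨m, hm, hmH⟩ := D.conj_into h (Subgroup.zpowers_le.2 hgz) hzp
  have := hti (m * g) ((D.Gv x).mul_mem (D.M_le h hm) hg) z hz hzQ (by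
    simpa [mul_assoc] using hmH _ (Subgroup.mem_zpowers _))
  simpa using (D.M x P).mul_mem ((D.M x P).inv_mem hm) this

/-- A subgroup over `P` with a conjugate outside `M` of an element of `P ∖ Q` is everything. -/
theorem eq_G_of_conj (h : D.I x P) {H : Subgroup X} (hH : H ≤ D.Gv x) (hPH : P ≤ H) {g z : X}
    (hg : g ∈ D.Gv x) (hgM : g ∉ D.M x P) (hz : z ∈ P) (hzQ : z ∉ D.Q x)
    (hgz : g * z * g⁻¹ ∈ H) : H = D.Gv x := by
  by_contra hne
  exact hgM (D.mem_M_of_conj h hg hz hzQ ((D.M_spec h).2.2.1 H hPH hH hne hgz))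

theorem sup_cj_eq (h : D.I x P) {g : X} (hg : g ∈ D.Gv x) (hgM : g ∉ D.M x P) :
    P ⊔ cj g P = D.Gv x := by
  obtain ⟨z, hz, hzQ⟩ := D.ne_Q h
  exact D.eq_G_of_conj h (sup_le (D.le_G h) (D.le_G (D.I_conj hg h))) le_sup_left hg hgM hz hzQ
    (Subgroup.mem_sup_right (conj_mem_cj hz))

/-- A normal subgroup with an element of `P ∖ Q` covers `G` modulo `P`. -/
theorem sup_eq_of_normal (h : D.I x P) {N : Subgroup X} (hN : N ≤ D.Gv x)
    (hnorm : ∀ g ∈ D.Gv x, ∀ n ∈ N, g * n * g⁻¹ ∈ N) {z : X} (hzN : z ∈ N) (hz : z ∈ P)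
    (hzQ : z ∉ D.Q x) : N ⊔ P = D.Gv x := by
  obtain ⟨g, hg, hgM⟩ := D.exists_not_mem h
  exact D.eq_G_of_conj h (sup_le hN (D.le_G h)) le_sup_right hg hgM hz hzQ
    (Subgroup.mem_sup_left (hnorm g hg z hzN))

omit [Finite X] hp in
/-- Every Sylow subgroup sees the same configuration. -/
theorem sup_eq_comm {P' : Subgroup X} (h : D.I x P) (h' : D.I x P') (hne : P ⊔ P' ≠ D.Gv x) :
    P' ≤ D.M x P :=
  le_sup_right.trans ((D.M_spec h).2.2.1 _ le_sup_left (sup_le (D.le_G h) (D.le_G h')) hne)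

/-- Two vertices share an edge. -/
def Adj (x y : Γ) : Prop := ∃ P, D.I x P ∧ D.I y P

/-- The distance is at most `k`. -/
def Near : ℕ → Γ → Γ → Prop
  | 0, x, y => x = y
  | k + 1, x, y => ∃ z, Near k x z ∧ D.Adj z y

theorem adj_refl (x : Γ) : D.Adj x x := (D.exists_I x).imp fun _ h => ⟨h, h⟩

theorem adj_symm (h : D.Adj x y) : D.Adj y x := h.imp fun _ h => h.symm

theorem near_succ {k : ℕ} (h : D.Near k x y) : D.Near (k + 1) x y := ⟨y, h, D.adj_refl y⟩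

theorem near_mono {k l : ℕ} (hkl : k ≤ l) (h : D.Near k x y) : D.Near l x y := by
  induction hkl with
  | refl => exact h
  | step _ ih => exact D.near_succ ih

theorem near_add {k l : ℕ} (h : D.Near k x y) (h' : D.Near l y z) : D.Near (k + l) x z := by
  induction l generalizing z with
  | zero => cases h'; exact h
  | succ l ih => obtain ⟨w, hw, hwz⟩ := h'; exact ⟨w, ih hw, hwz⟩

theorem near_one (h : D.I x P) (h' : D.I y P) : D.Near 1 x y := ⟨x, rfl, P, h, h'⟩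

theorem near_symm {k : ℕ} (h : D.Near k x y) : D.Near k y x := by
  induction k generalizing y with
  | zero => exact h.symm
  | succ k ih =>
    obtain ⟨w, hw, hwy⟩ := h
    have h1 : D.Near (1 + k) y x := D.near_add ⟨y, rfl, D.adj_symm hwy⟩ (ih hw)
    rwa [add_comm] at h1

theorem smul_adj (g : X) (h : D.Adj x y) : D.Adj (g • x) (g • y) := by
  obtain ⟨P, h1, h2⟩ := h; exact ⟨_, D.smul_I g h1, D.smul_I g h2⟩

theorem smul_near (g : X) {k : ℕ} (h : D.Near k x y) : D.Near k (g • x) (g • y) := by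
  induction k generalizing y with
  | zero => exact congrArg (g • ·) h
  | succ k ih => obtain ⟨w, hw, hwy⟩ := h; exact ⟨_, ih hw, D.smul_adj g hwy⟩


theorem exists_far : ∃ k, ∃ x y : Γ, D.Near k x y ∧ ¬ D.V x ≤ D.Q y := by
  classical
  by_contra hc
  push Not at hc
  set x := D.base
  obtain ⟨P, hP⟩ := D.exists_I x
  -- the subgroup generated by the reachable `V`
  set R : Set Γ := {y | ∃ k, D.Near k x y} with hR
  set N : Subgroup X := ⨆ y ∈ R, D.V y with hN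
  have hNQ : N ≤ D.Q x := iSup₂_le fun y ⟨k, hk⟩ => hc k y x (D.near_symm hk)
  have hinv : ∀ g : X, (∃ k, D.Near k x (g • x)) → ∀ t ∈ N, g * t * g⁻¹ ∈ N := by
    rintro g ⟨k, hk⟩ t ht
    have h1 : cj g N ≤ N := by
      rw [hN, cj, Subgroup.map_iSup]
      refine iSup_le fun y => ?_
      rw [Subgroup.map_iSup]
      refine iSup_le fun ⟨l, hl⟩ => ?_
      refine le_iSup₂_of_le (g • y) ⟨k + l, D.near_add hk (D.smul_near g hl)⟩ ?_
      rw [D.smul_V]; exact le_rfl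
    exact h1 (conj_mem_cj ht)
  have hbot : N = ⊥ := D.core hP N (hNQ.trans (D.Q_le hP))
    (fun y hy g hg => hinv g ⟨1 + 1, D.near_add (D.near_one hP hy)
      (D.near_symm (by
        have := D.smul_near g (D.near_one hP hy)
        rwa [D.fixes hg] at this))⟩)
    (fun g hg => hinv g ⟨1, D.near_one hP (by have := D.smul_I g hP; rwa [hg] at this)⟩)
  exact D.V_ne_bot x (le_bot_iff.1 (hbot ▸ le_iSup₂_of_le x ⟨0, rfl⟩ le_rfl))

open scoped Classical in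
/-- The least distance of vertices with `V x ≰ Q y`. -/
noncomputable def b : ℕ := Nat.find D.exists_far

theorem exists_crit : ∃ x y, D.Near D.b x y ∧ ¬ D.V x ≤ D.Q y := by
  classical exact Nat.find_spec D.exists_far

theorem le_Q {k : ℕ} (hk : k < D.b) (h : D.Near k x y) : D.V x ≤ D.Q y := by
  classical
  by_contra hc
  exact Nat.find_min D.exists_far hk ⟨x, y, h, hc⟩

theorem one_le_b : 1 ≤ D.b := by
  by_contra hc
  obtain ⟨x, y, h, hV⟩ := D.exists_crit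
  rw [Nat.lt_one_iff.1 (not_le.1 hc)] at h
  cases h; exact hV (D.V_le x)

theorem commute_of_near {k : ℕ} (hk : k < D.b) (h : D.Near k x y) {u v : X} (hu : u ∈ D.V x)
    (hv : v ∈ D.V y) : u * v = v * u :=
  D.comm u (D.le_Q hk h hu) v hv

theorem le_edge {k : ℕ} (hk : k < D.b) (h : D.Near k x z) (hP : D.I z P) : D.V x ≤ P :=
  (D.le_Q hk h).trans (D.Q_le hP)


theorem IP_le_normalizer (h : D.I x P) {H : Subgroup X} (hH : H ≤ P) :
    H ≤ Subgroup.normalizer (D.Q x : Set X) :=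
  le_normalizer_of_conj fun g hg => D.normQ g (D.le_G h (hH hg))


theorem V_le_normalizer (h : D.I x P) {H : Subgroup X} (hH : H ≤ P) :
    H ≤ Subgroup.normalizer (D.V x : Set X) :=
  le_normalizer_of_conj fun g hg => D.normV g (D.le_G h (hH hg))

/-- The data of a critical pair: `P` is the first edge, `P'` the last. -/
structure Crit (x y : Γ) (P P' : Subgroup X) : Prop where
  first : D.I x P
  last : D.I y P'
  mem_first : D.V y ≤ P
  mem_last : D.V x ≤ P'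
  not_le : ¬ D.V x ≤ D.Q y


theorem Crit.not_le' {x y : Γ} (h : D.Crit x y P P') : ¬ D.V y ≤ D.Q x := fun hc => by
  refine h.not_le fun a ha => D.cent h.last a (h.mem_last ha) fun v hv => ?_
  exact (D.comm v (hc hv) a ha).symm

theorem Crit.symm {x y : Γ} (h : D.Crit x y P P') : D.Crit y x P' P :=
  ⟨h.last, h.first, h.mem_last, h.mem_first, h.not_le'⟩


theorem Crit.smul {x y : Γ} (h : D.Crit x y P P') (g : X) :
    D.Crit (g • x) (g • y) (cj g P) (cj g P') where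
  first := D.smul_I g h.first
  last := D.smul_I g h.last
  mem_first := by rw [D.smul_V]; exact cj_mono g h.mem_first
  mem_last := by rw [D.smul_V]; exact cj_mono g h.mem_last
  not_le hc := h.not_le fun a ha => by
    rw [D.smul_V, D.smul_Q] at hc
    simpa [mem_cj, mul_assoc] using hc (conj_mem_cj (g := g) ha)

/-! ### The maximal subgroup as a function of one element -/

theorem M_conj (h : D.I x P) {m : X} (hm : m ∈ D.M x P) : D.I x (cj m P) ∧ cj m P ≤ D.M x P := by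
  refine ⟨D.I_conj (D.M_le h hm) h, ?_⟩
  rintro _ ⟨z, hz, rfl⟩
  simpa using (D.M x P).mul_mem ((D.M x P).mul_mem hm ((D.M_spec h).1 hz)) ((D.M x P).inv_mem hm)

theorem M_eq (h : D.I x P) (h' : D.I x P') (hle : P' ≤ D.M x P) : D.M x P' = D.M x P := by
  have h1 : D.M x P ≤ D.M x P' :=
    (D.M_spec h').2.2.1 _ hle (D.M_le h) (D.M_spec h).2.1.ne
  exact le_antisymm ((D.M_spec h).2.2.1 _ ((D.M_spec h).1.trans h1) (D.M_le h') (D.M_spec h').2.1.ne) h1

theorem gen_iff (h : D.I x P) (h' : D.I x P') : P ⊔ P' = D.Gv x ↔ D.M x P' ≠ D.M x P := by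
  constructor
  · intro e hM
    exact (D.M_spec h).2.1.not_ge (e ▸ sup_le (D.M_spec h).1 (hM ▸ (D.M_spec h').1))
  · intro hne
    by_contra e
    exact hne (D.M_eq h h' (D.sup_eq_comm h h' e))

/-- An element outside `Q` lies in only one maximal subgroup. -/
theorem M_eq_of_mem (h : D.I x P) (h' : D.I x P') {z : X} (hz : z ∈ P) (hzQ : z ∉ D.Q x)
    (hzM : z ∈ D.M x P') : D.M x P = D.M x P' := by
  obtain ⟨m, hm, hmz⟩ := D.conj_into h' (Subgroup.zpowers_le.2 hzM)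
    ((D.pgroup h).to_le (Subgroup.zpowers_le.2 hz))
  obtain ⟨g, hg, rfl⟩ := D.conj_I h h'
  have hmG := D.M_le h' hm
  have h1 : g⁻¹ * m ∈ D.M x P := by
    refine (D.M_spec h).2.2.2.1 _ ((D.Gv x).mul_mem ((D.Gv x).inv_mem hg) hmG) z hz hzQ ?_
    have := mem_cj.1 (hmz z (Subgroup.mem_zpowers z))
    simpa [mul_assoc] using this
  have e1 : cj (m⁻¹ * g) P ≤ D.M x P := (D.M_conj h (by simpa using (D.M x P).inv_mem h1)).2
  have hm' : m⁻¹ ∈ D.M x (cj g P) := (D.M x (cj g P)).inv_mem hm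
  obtain ⟨hI, hle⟩ := D.M_conj h' hm'
  rw [← cj_mul] at hI hle
  rw [← D.M_eq h hI e1, D.M_eq h' hI hle]

theorem M_cj_ne (h : D.I x P) (h' : D.I x P') (hne : D.M x P' ≠ D.M x P) {g : X} (hg : g ∈ P)
    (hgQ : g ∉ D.Q x) : D.M x (cj g P') ≠ D.M x P' ∧ D.M x (cj g P') ≠ D.M x P := by
  have hgG := D.le_G h hg
  have hI := D.I_conj hgG h'
  constructor
  · intro e
    obtain ⟨z, hz, hzQ⟩ := D.ne_Q h'
    have h1 : g * z * g⁻¹ ∈ D.M x P' := e ▸ (D.M_spec hI).1 (conj_mem_cj hz)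
    exact hne (D.M_eq_of_mem h h' hg hgQ (D.mem_M_of_conj h' hgG hz hzQ h1)).symm
  · intro e
    refine hne (D.M_eq h h' fun a ha => ?_)
    have h1 : g * a * g⁻¹ ∈ D.M x P := e ▸ (D.M_spec hI).1 (conj_mem_cj ha)
    have hgM := (D.M_spec h).1 hg
    simpa [mul_assoc] using (D.M x P).mul_mem ((D.M x P).mul_mem ((D.M x P).inv_mem hgM) h1) hgM

theorem M_cj_not_mem (h : D.I x P) {g : X} (hg : g ∈ D.Gv x) (hgM : g ∉ D.M x P) :
    D.M x (cj g P) ≠ D.M x P := (D.gen_iff h (D.I_conj hg h)).1 (D.sup_cj_eq h hg hgM)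

/-- The fixed points of an edge lie in the `V` of all its vertices. -/
theorem center_mem (h : D.I x P) (h' : D.I y P) {a : X} (ha : a ∈ D.V x)
    (hc : a ∈ Subgroup.centralizer (P : Set X)) : a ∈ D.V y :=
  D.center_le h' a (D.Q_le h (D.V_le x ha)) hc (D.powV a ha)

theorem mem_centralizer_G (hgen : P ⊔ P' = D.Gv x) {a : X}
    (h : a ∈ Subgroup.centralizer (P : Set X)) (h' : a ∈ Subgroup.centralizer (P' : Set X)) :
    a ∈ Subgroup.centralizer (D.Gv x : Set X) := by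
  have hle : P ⊔ P' ≤ Subgroup.centralizer ({a} : Set X) :=
    sup_le (fun g hg => Subgroup.mem_centralizer_singleton_iff.2 (h g hg))
      (fun g hg => Subgroup.mem_centralizer_singleton_iff.2 (h' g hg))
  rw [hgen] at hle
  exact fun g hg => Subgroup.mem_centralizer_singleton_iff.1 (hle hg)

theorem eq_one_of_fixed (h : D.I x P) {a : X} (ha : a ∈ ⁅D.V x, P⁆)
    (h' : D.I x P') (hne : D.M x P' ≠ D.M x P) (hc : a ∈ Subgroup.centralizer (P' : Set X)) : a = 1 :=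
  Subgroup.mem_bot.1 (D.line h ▸ ⟨ha, D.mem_centralizer_G ((D.gen_iff h h').2 hne)
    (D.comm_le h ha).2 hc⟩)

theorem not_central (h : D.I x P) : ¬ ⁅D.V x, P⁆ ≤ Subgroup.centralizer (D.Gv x : Set X) := by
  intro hle
  obtain ⟨g, hg, hgQ⟩ := D.ne_Q h
  refine hgQ (D.cent h g hg fun v hv => ?_)
  have h1 : ⁅v, g⁆ = 1 := Subgroup.mem_bot.1 (D.line h ▸
    ⟨Subgroup.commutator_mem_commutator hv hg, hle (Subgroup.commutator_mem_commutator hv hg)⟩)
  exact (commutatorElement_eq_one_iff_mul_comm.1 h1).symm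

theorem crit_of_near {x y : Γ} (h : D.Near D.b x y) (hV : ¬ D.V x ≤ D.Q y) :
    ∃ P P', D.Crit x y P P' := by
  obtain ⟨k, hk⟩ : ∃ k, D.b = k + 1 := ⟨D.b - 1, by have := D.one_le_b; omega⟩
  have h' := D.near_symm h
  rw [hk] at h h'
  obtain ⟨z, hz, P', hP'z, hP'y⟩ := h
  obtain ⟨z', hz', P, hPz, hPx⟩ := h'
  exact ⟨P, P', hPx, hP'y, D.le_edge (by omega) hz' hPz, D.le_edge (by omega) hz hP'z, hV⟩

theorem Crit.inf_eq {x y : Γ} (h : D.Crit x y P P') :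
    D.V x ⊓ D.Q y = D.V x ⊓ Subgroup.centralizer (P : Set X) := by
  apply le_antisymm <;> intro a ha <;> refine ⟨ha.1, ?_⟩
  · obtain ⟨u, hu, huQ⟩ := SetLike.not_le_iff_exists.1 h.not_le'
    exact D.fix_eq h.first u (h.mem_first hu) huQ a ha.1 (D.comm a ha.2 u hu).symm
  · exact D.cent h.last a (h.mem_last ha.1) fun v hv => (ha.2 v (h.mem_first hv)).symm

theorem Crit.card_sup {x y : Γ} (h : D.Crit x y P P') :
    Nat.card ↥(D.V x ⊔ D.Q y) * Nat.card (D.Q x) = Nat.card P * Nat.card (D.Q y) := by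
  have h1 := CfsgLib.ThompsonJ.card_sup_mul_card_inf (D.V x) (D.Q y)
    (D.IP_le_normalizer h.last h.mem_last)
  rw [h.inf_eq D] at h1
  have h2 := D.card_V h.first
  refine Nat.eq_of_mul_eq_mul_right
    (Nat.card_pos (α := ↥(D.V x ⊓ Subgroup.centralizer (P : Set X)))) ?_
  rw [mul_right_comm, h1, mul_right_comm, h2]
  ring

theorem Crit.sup_last {x y : Γ} (h : D.Crit x y P P') : P' = D.V x ⊔ D.Q y := by
  have h1 := h.card_sup D
  have h2 := h.symm.card_sup D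
  have h3 := Subgroup.card_le_of_le (sup_le h.mem_last (D.Q_le h.last))
  have h4 := Subgroup.card_le_of_le (sup_le h.mem_first (D.Q_le h.first))
  refine (Subgroup.eq_of_le_of_card_ge (sup_le h.mem_last (D.Q_le h.last)) ?_).symm
  refine Nat.le_of_mul_le_mul_right ?_ (Nat.card_pos (α := ↥(D.Q x)))
  rw [h1, ← h2]
  exact Nat.mul_le_mul_right _ h4

theorem Crit.sup_first {x y : Γ} (h : D.Crit x y P P') : P = D.V y ⊔ D.Q x := h.symm.sup_last D

theorem Crit.exists_decomp {x y : Γ} (h : D.Crit x y P P') {g : X} (hg : g ∈ P) :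
    ∃ u ∈ D.V y, ∃ c ∈ D.Q x, g = u * c :=
  exists_mul_of_mem_sup (D.IP_le_normalizer h.first h.mem_first) (by rwa [← h.sup_first D])

/-- `[V x, P] = [V x, V y]`. -/
theorem Crit.comm_eq {x y : Γ} (h : D.Crit x y P P') : ⁅D.V x, P⁆ = ⁅D.V x, D.V y⁆ := by
  refine le_antisymm ?_ (Subgroup.commutator_mono le_rfl h.mem_first)
  rw [Subgroup.commutator_le]
  intro a ha g hg
  obtain ⟨u, hu, c, hc, rfl⟩ := h.exists_decomp D hg
  have e : ⁅a, u * c⁆ = ⁅a, u⁆ := by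
    have e1 := D.comm c hc a ha
    rw [commutatorElement_def, commutatorElement_def]
    calc a * (u * c) * a⁻¹ * (u * c)⁻¹ = a * u * (c * a⁻¹ * c⁻¹) * u⁻¹ := by group
      _ = a * u * a⁻¹ * u⁻¹ := by
        rw [D.comm c hc a⁻¹ ((D.V x).inv_mem ha)]; group
  rw [e]
  exact Subgroup.commutator_mem_commutator ha hu


theorem Crit.comm_le_V {x y : Γ} (h : D.Crit x y P P') : ⁅D.V x, D.V y⁆ ≤ D.V x := by
  rw [Subgroup.commutator_le]
  intro a ha u hu
  have h1 := D.normV u (D.le_G h.first (h.mem_first hu)) a⁻¹ ((D.V x).inv_mem ha)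
  simpa [commutatorElement_def, mul_assoc] using (D.V x).mul_mem ha h1

theorem Crit.comm_le_center {x y : Γ} (h : D.Crit x y P P') :
    ⁅D.V x, D.V y⁆ ≤ Subgroup.centralizer (P : Set X) := by
  intro r hr g hg
  obtain ⟨u, hu, c, hc, rfl⟩ := h.exists_decomp D hg
  have hrx := h.comm_le_V D hr
  have hry : r ∈ D.V y := h.symm.comm_le_V D (Subgroup.commutator_comm (D.V x) (D.V y) ▸ hr)
  calc u * c * r = u * (c * r) := mul_assoc _ _ _
    _ = u * (r * c) := by rw [D.comm c hc r hrx]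
    _ = u * r * c := (mul_assoc _ _ _).symm
    _ = r * u * c := by rw [D.commV hu hry]
    _ = r * (u * c) := mul_assoc _ _ _

theorem Crit.comm_le_last {x y : Γ} (h : D.Crit x y P P') :
    ⁅D.V x, D.V y⁆ ≤ D.V y ⊓ Subgroup.centralizer (P' : Set X) := by
  rw [Subgroup.commutator_comm]
  exact le_inf (h.symm.comm_le_V D) (h.symm.comm_le_center D)

end Sys

end CfsgLib.PushUp.CommonCore
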